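import Cfsg.Agent.Lib.Leech.Basic
import Cfsg.Agent.Lib.Golay.Words

/-!
Codes of length 24 with 4096 words, all weights divisible by 4 and minimum 8: an octad and the first
order Reed-Muller coordinates outside it.
-/

set_option autoImplicit false

namespace CfsgLib.Leech.CodeUnique

open Cfsg Finset
open scoped Classical
open CfsgLib.Golay (wordOf idx pt)

/-- The hypotheses on the code. -/
structure IsCodeLike (C : Submodule (ZMod 2) (GolayPt → ZMod 2)) : Prop where
  card_eq : Nat.card C = 4096
  four_dvd : ∀ c ∈ C, 4 ∣ (support₂ c).card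
  eight_le : ∀ c ∈ C, c ≠ 0 → 8 ≤ (support₂ c).card

/-- Transport of a code along a permutation of the points. -/
def pullCode (C : Submodule (ZMod 2) (GolayPt → ZMod 2)) (σ : Equiv.Perm GolayPt) :
    Submodule (ZMod 2) (GolayPt → ZMod 2) :=
  C.comap (LinearMap.funLeft (ZMod 2) (ZMod 2) σ)

theorem mem_pullCode {C : Submodule (ZMod 2) (GolayPt → ZMod 2)} {σ : Equiv.Perm GolayPt}
    {w : GolayPt → ZMod 2} : w ∈ pullCode C σ ↔ (fun i => w (σ i)) ∈ C := Iff.rfl

theorem card_support₂_comp (σ : Equiv.Perm GolayPt) (w : GolayPt → ZMod 2) :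
    (support₂ fun i => w (σ i)).card = (support₂ w).card := by
  refine Finset.card_equiv σ fun i => ?_
  simp [support₂]

theorem IsCodeLike.pull {C : Submodule (ZMod 2) (GolayPt → ZMod 2)} (h : IsCodeLike C)
    (σ : Equiv.Perm GolayPt) : IsCodeLike (pullCode C σ) where
  card_eq := by
    rw [← h.card_eq]
    refine Nat.card_congr ⟨fun w => ⟨fun i => w.1 (σ i), w.2⟩,
      fun c => ⟨fun i => c.1 (σ.symm i), ?_⟩, fun w => ?_, fun c => ?_⟩
    · rw [mem_pullCode]; convert c.2 using 1; funext i; simp
    · ext i; simp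
    · ext i; simp
  four_dvd c hc := card_support₂_comp σ c ▸ h.four_dvd _ hc
  eight_le c hc h0 := card_support₂_comp σ c ▸ h.eight_le _ hc (fun e => h0 (funext fun i => by
    simpa using congrFun e (σ.symm i)))

/-- The words of the code vanishing on a set of points, as a finset. -/
noncomputable def vanish (C : Submodule (ZMod 2) (GolayPt → ZMod 2)) (A : Finset GolayPt) :
    Finset (GolayPt → ZMod 2) :=
  Finset.univ.filter fun w => w ∈ C ∧ ∀ i ∈ A, w i = 0

theorem mem_vanish {C : Submodule (ZMod 2) (GolayPt → ZMod 2)} {A : Finset GolayPt}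
    {w : GolayPt → ZMod 2} : w ∈ vanish C A ↔ w ∈ C ∧ ∀ i ∈ A, w i = 0 := by
  simp [vanish]

variable (C : Submodule (ZMod 2) (GolayPt → ZMod 2))

theorem add_mem_vanish {A : Finset GolayPt} {v w : GolayPt → ZMod 2} (hv : v ∈ vanish C A)
    (hw : w ∈ vanish C A) : v + w ∈ vanish C A := by
  rw [mem_vanish] at *
  exact ⟨C.add_mem hv.1 hw.1, fun i hi => by simp [hv.2 i hi, hw.2 i hi]⟩

theorem zero_mem_vanish (A : Finset GolayPt) : (0 : GolayPt → ZMod 2) ∈ vanish C A :=
  mem_vanish.2 ⟨C.zero_mem, fun _ _ => rfl⟩

theorem half (A : Finset GolayPt) (i : GolayPt) (h : ∃ w ∈ vanish C A, w i ≠ 0) :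
    2 * ((vanish C A).filter fun w => w i ≠ 0).card = (vanish C A).card ∧
      2 * (vanish C (insert i A)).card = (vanish C A).card := by
  obtain ⟨u, hu, hui⟩ := h
  have hui' : u i = 1 := (zmod2_cases (u i)).resolve_left hui
  have e : ((vanish C A).filter fun w => w i ≠ 0).card =
      ((vanish C A).filter fun w => ¬ w i ≠ 0).card := by
    refine Finset.card_nbij' (· + u) (· + u) ?_ ?_ ?_ ?_
    · intro w hw
      simp only [Finset.coe_filter, Set.mem_ofPred_eq, not_not] at hw ⊢
      refine ⟨add_mem_vanish C hw.1 hu, ?_⟩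
      rw [Pi.add_apply, hui', (zmod2_cases (w i)).resolve_left hw.2]; decide
    · intro w hw
      simp only [Finset.coe_filter, Set.mem_ofPred_eq, not_not] at hw ⊢
      refine ⟨add_mem_vanish C hw.1 hu, ?_⟩
      rw [Pi.add_apply, hui', hw.2]; decide
    · intro w _; show w + u + u = w; rw [add_assoc, ZModModule.add_self, add_zero]
    · intro w _; show w + u + u = w; rw [add_assoc, ZModModule.add_self, add_zero]
  have t := Finset.card_filter_add_card_filter_not (s := vanish C A) (fun w => w i ≠ 0)
  have e2 : vanish C (insert i A) = (vanish C A).filter fun w => ¬ w i ≠ 0 := by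
    ext w; simp only [Finset.mem_filter, mem_vanish, Finset.forall_mem_insert, not_not]; tauto
  rw [e2]
  omega

theorem card_vanish_le_double (A : Finset GolayPt) (i : GolayPt) :
    (vanish C A).card ≤ 2 * (vanish C (insert i A)).card := by
  by_cases h : ∃ w ∈ vanish C A, w i ≠ 0
  · rw [(half C A i h).2]
  · simp only [not_exists, not_and, not_not] at h
    have : vanish C A ⊆ vanish C (insert i A) := fun w hw => by
      have := mem_vanish.1 hw
      exact mem_vanish.2 ⟨this.1, fun j hj => by
        rcases Finset.mem_insert.1 hj with rfl | hj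
        · exact h w hw
        · exact this.2 j hj⟩
    have := Finset.card_le_card this
    omega

theorem sum_weight_le (A : Finset GolayPt) :
    2 * ∑ w ∈ vanish C A, (support₂ w).card ≤ (24 - A.card) * (vanish C A).card := by
  have e : ∑ w ∈ vanish C A, (support₂ w).card =
      ∑ i ∈ Aᶜ, ((vanish C A).filter fun w => w i ≠ 0).card := by
    simp only [Finset.card_filter, support₂]
    rw [Finset.sum_comm (s := Aᶜ)]
    refine Finset.sum_congr rfl fun w hw => ?_
    refine (Finset.sum_subset (Finset.subset_univ _) fun i _ hi => ?_).symm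
    rw [Finset.mem_compl, not_not] at hi
    simp [(mem_vanish.1 hw).2 i hi]
  have h2 : ∀ i ∈ Aᶜ, 2 * ((vanish C A).filter fun w => w i ≠ 0).card ≤ (vanish C A).card := by
    intro i _
    by_cases h : ∃ w ∈ vanish C A, w i ≠ 0
    · exact (half C A i h).1.le
    · simp only [not_exists, not_and, not_not] at h
      rw [Finset.filter_false_of_mem fun w hw => by simpa using h w hw]
      simp
  rw [e, Finset.mul_sum]
  refine (Finset.sum_le_sum h2).trans_eq ?_
  rw [Finset.sum_const, smul_eq_mul, Finset.card_compl]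
  simp [GolayPt]

theorem sum_weight_eq (A : Finset GolayPt) (h : ∀ i, i ∉ A → ∃ w ∈ vanish C A, w i ≠ 0) :
    2 * ∑ w ∈ vanish C A, (support₂ w).card = (24 - A.card) * (vanish C A).card := by
  have e : ∑ w ∈ vanish C A, (support₂ w).card =
      ∑ i ∈ Aᶜ, ((vanish C A).filter fun w => w i ≠ 0).card := by
    simp only [Finset.card_filter, support₂]
    rw [Finset.sum_comm (s := Aᶜ)]
    refine Finset.sum_congr rfl fun w hw => ?_
    refine (Finset.sum_subset (Finset.subset_univ _) fun i _ hi => ?_).symm
    rw [Finset.mem_compl, not_not] at hi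
    simp [(mem_vanish.1 hw).2 i hi]
  rw [e, Finset.mul_sum, Finset.sum_congr rfl fun i hi => (half C A i (h i (Finset.mem_compl.1 hi))).1,
    Finset.sum_const, smul_eq_mul, Finset.card_compl]
  simp [GolayPt]

variable {C}

theorem IsCodeLike.card_vanish_empty (h : IsCodeLike C) : (vanish C ∅).card = 4096 := by
  rw [← h.card_eq, ← Nat.card_eq_finsetCard]
  exact Nat.card_congr (Equiv.subtypeEquivRight fun w => by simp [mem_vanish])

theorem sum_lower (h : IsCodeLike C) (A : Finset GolayPt) (d : ℕ)
    (hd : ∀ w ∈ vanish C A, w ≠ 0 → d ≤ (support₂ w).card) :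
    d * ((vanish C A).card - 1) ≤ ∑ w ∈ vanish C A, (support₂ w).card := by
  have _ := h
  rw [← Finset.add_sum_erase _ _ (zero_mem_vanish C A), ← Finset.card_erase_of_mem (zero_mem_vanish C A),
    mul_comm]
  refine le_add_left ?_
  rw [← smul_eq_mul, ← Finset.sum_const]
  exact Finset.sum_le_sum fun w hw => hd w (Finset.mem_of_mem_erase hw) (Finset.ne_of_mem_erase hw)

theorem IsCodeLike.plotkin (h : IsCodeLike C) (A : Finset GolayPt) :
    16 * ((vanish C A).card - 1) ≤ (24 - A.card) * (vanish C A).card := by
  have := sum_lower h A 8 fun w hw h0 => h.eight_le w (mem_vanish.1 hw).1 h0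
  have := sum_weight_le C A
  omega

theorem IsCodeLike.exists_octad (h : IsCodeLike C) : ∃ w ∈ C, (support₂ w).card = 8 := by
  by_contra hne
  simp only [not_exists, not_and] at hne
  have h12 := sum_lower h {none} 12 fun w hw h0 => by
    have := h.eight_le w (mem_vanish.1 hw).1 h0
    have := h.four_dvd w (mem_vanish.1 hw).1
    have := hne w (mem_vanish.1 hw).1
    omega
  have hle := sum_weight_le C {none}
  have hd := card_vanish_le_double C ∅ none
  rw [h.card_vanish_empty, show insert none (∅ : Finset GolayPt) = {none} from rfl] at hd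
  rw [Finset.card_singleton] at hle
  omega

/-- Restriction to an 8-set of a code word meets it evenly. -/
theorem IsCodeLike.even_inter (h : IsCodeLike C) {v w : GolayPt → ZMod 2} (hv : v ∈ C) (hw : w ∈ C) :
    2 ∣ (support₂ v ∩ support₂ w).card := by
  have h1 := h.four_dvd _ hv
  have h2 := h.four_dvd _ hw
  have h3 := h.four_dvd _ (C.add_mem hv hw)
  have e : (support₂ (v + w)).card + 2 * (support₂ v ∩ support₂ w).card =
      (support₂ v).card + (support₂ w).card := by
    have h1 : ∀ i, (if (v + w) i ≠ 0 then 1 else 0) + 2 * (if v i ≠ 0 ∧ w i ≠ 0 then 1 else 0) =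
        (if v i ≠ 0 then (1 : ℕ) else 0) + (if w i ≠ 0 then 1 else 0) := fun i => by
      rcases zmod2_cases (v i) with a | a <;> rcases zmod2_cases (w i) with b | b <;>
        simp [a, b, show (1 : ZMod 2) + 1 = 0 by decide]
    rw [support₂, support₂, support₂, ← Finset.filter_and, Finset.card_filter, Finset.card_filter,
      Finset.card_filter, Finset.card_filter, Finset.mul_sum, ← Finset.sum_add_distrib,
      ← Finset.sum_add_distrib]
    exact Finset.sum_congr rfl fun i _ => h1 i
  omega

/-- The even patterns on an 8-set. -/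
theorem card_even_patterns :
    (Finset.univ.filter fun f : Fin 8 → ZMod 2 => ∑ j, f j = 0).card = 128 := by
  decide +kernel

theorem IsCodeLike.le_card_vanish_octad (h : IsCodeLike C) {o : GolayPt → ZMod 2} (ho : o ∈ C)
    (h8 : (support₂ o).card = 8) : 32 ≤ (vanish C (support₂ o)).card ∧
      ((vanish C (support₂ o)).card = 32 → ∀ f : GolayPt → ZMod 2, ∑ i ∈ support₂ o, f i = 0 →
        ∃ c ∈ C, ∀ i ∈ support₂ o, c i = f i) := by
  set O := support₂ o
  let e : Fin 8 ≃ O := Fintype.equivOfCardEq (by rw [Fintype.card_fin, Fintype.card_coe, h8])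
  let r : (GolayPt → ZMod 2) → (Fin 8 → ZMod 2) := fun w j => w (e j)
  set E := Finset.univ.filter fun f : Fin 8 → ZMod 2 => ∑ j, f j = 0
  have hsum : ∀ w : GolayPt → ZMod 2, ∑ j, w (e j) = ∑ i ∈ O, w i := fun w => by
    rw [e.sum_comp (fun x : O => w x), Finset.univ_eq_attach, Finset.sum_attach O w]
  have hr : ∀ w ∈ vanish C ∅, r w ∈ E := fun w hw => by
    simp only [E, Finset.mem_filter, Finset.mem_univ, true_and, r, hsum]
    have := h.even_inter (mem_vanish.1 hw).1 ho
    rw [← ZMod.natCast_eq_zero_iff] at this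
    refine Eq.trans ?_ this
    rw [show support₂ w ∩ O = O.filter (fun i => w i ≠ 0) by ext i; simp [support₂, and_comm],
      Finset.card_filter, Nat.cast_sum]
    refine Finset.sum_congr rfl fun i _ => ?_
    rcases zmod2_cases (w i) with a | a <;> simp [a]
  have hfib : ∀ f ∈ (vanish C ∅).image r, ((vanish C ∅).filter fun w => r w = f).card ≤
      (vanish C O).card := fun f hf => by
    obtain ⟨u, hu, rfl⟩ := Finset.mem_image.1 hf
    refine Finset.card_le_card_of_injOn (· + u) (fun w hw => ?_) fun a _ b _ => add_right_cancel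
    simp only [Finset.coe_filter, Set.mem_ofPred_eq] at hw
    rw [Finset.mem_coe, mem_vanish]
    refine ⟨C.add_mem (mem_vanish.1 hw.1).1 (mem_vanish.1 hu).1, fun i hi => ?_⟩
    have : w i = u i := by simpa [r] using congrFun hw.2 (e.symm ⟨i, hi⟩)
    show w i + u i = 0
    rw [this]; exact ZModModule.add_self _
  have hcount := Finset.card_le_mul_card_image (f := r) (vanish C ∅) (vanish C O).card hfib
  have him : (vanish C ∅).image r ⊆ E := fun f hf => by
    obtain ⟨w, hw, rfl⟩ := Finset.mem_image.1 hf; exact hr w hw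
  have hle := (Finset.card_le_card him).trans_eq card_even_patterns
  rw [h.card_vanish_empty] at hcount
  refine ⟨by nlinarith, fun h32 f hf => ?_⟩
  rw [h32] at hcount
  have heq : (vanish C ∅).image r = E :=
    Finset.eq_of_subset_of_card_le him (by rw [card_even_patterns]; omega)
  have hfE : (fun j => f (e j)) ∈ E := by
    simp only [E, Finset.mem_filter, Finset.mem_univ, true_and, hsum]; exact hf
  rw [← heq] at hfE
  obtain ⟨c, hc, hcf⟩ := Finset.mem_image.1 hfE
  exact ⟨c, (mem_vanish.1 hc).1, fun i hi => by simpa [r] using congrFun hcf (e.symm ⟨i, hi⟩)⟩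

/-- Facts about the words vanishing on an octad. -/
theorem IsCodeLike.octad_facts (h : IsCodeLike C) {o : GolayPt → ZMod 2} (ho : o ∈ C)
    (h8 : (support₂ o).card = 8) :
    (vanish C (support₂ o)).card = 32 ∧
      (∃ w ∈ vanish C (support₂ o), ∀ i ∉ support₂ o, w i = 1) ∧
      ∀ p ∉ support₂ o, (vanish C (insert p (support₂ o))).card = 16 ∧
        (∀ j ∉ insert p (support₂ o), ∃ w ∈ vanish C (insert p (support₂ o)), w j ≠ 0) ∧
        ∀ i ∉ insert p (support₂ o), ∀ j ∉ insert p (support₂ o), i ≠ j →
          ∃ w ∈ vanish C (insert p (support₂ o)), w i ≠ w j := by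
  set O := support₂ o
  have h32 : 32 ≤ (vanish C O).card := (h.le_card_vanish_octad ho h8).1
  have hins : ∀ (A : Finset GolayPt) (j : GolayPt), j ∉ A → (insert j A).card = A.card + 1 :=
    fun A j hj => Finset.card_insert_of_notMem hj
  have h16 : ∀ p ∉ O, (vanish C (insert p O)).card = 16 ∧ (vanish C O).card = 32 := fun p hp => by
    have hpl := h.plotkin (insert p O)
    have hd := card_vanish_le_double C O p
    rw [hins O p hp, h8] at hpl
    omega
  have hnz : ∀ p ∉ O, ∀ j ∉ insert p O, ∃ w ∈ vanish C (insert p O), w j ≠ 0 := fun p hp j hj => by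
    by_contra hne
    simp only [not_exists, not_and, not_not] at hne
    have hpl := h.plotkin (insert j (insert p O))
    have hsub : vanish C (insert p O) ⊆ vanish C (insert j (insert p O)) := fun w hw =>
      mem_vanish.2 ⟨(mem_vanish.1 hw).1, Finset.forall_mem_insert .. |>.2 ⟨hne w hw, (mem_vanish.1 hw).2⟩⟩
    have := Finset.card_le_card hsub
    rw [hins _ j hj, hins O p hp, h8] at hpl
    have := (h16 p hp).1
    omega
  obtain ⟨p0, hp0⟩ : ∃ p, p ∉ O := by
    by_contra hne; simp only [not_exists, not_not] at hne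
    have : O = Finset.univ := Finset.eq_univ_iff_forall.2 hne
    rw [this] at h8; simp [GolayPt] at h8
  have hO32 := (h16 p0 hp0).2
  refine ⟨hO32, ?_, fun p hp => ⟨(h16 p hp).1, hnz p hp, fun i hi j hj hij => ?_⟩⟩
  · by_contra hne
    simp only [not_exists, not_and, not_forall] at hne
    have hw8 : ∀ w ∈ (vanish C O).erase 0, (support₂ w).card = 8 := fun w hw => by
      obtain ⟨hw0, hwO⟩ := Finset.mem_erase.1 hw
      obtain ⟨q, hq, hq1⟩ := hne w hwO
      have hwq : w ∈ vanish C (insert q O) := mem_vanish.2 ⟨(mem_vanish.1 hwO).1,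
        Finset.forall_mem_insert .. |>.2 ⟨(zmod2_cases (w q)).resolve_right hq1, (mem_vanish.1 hwO).2⟩⟩
      by_contra hne8
      have hlow : 12 ≤ (support₂ w).card := by
        have := h.eight_le w (mem_vanish.1 hwO).1 hw0
        have := h.four_dvd w (mem_vanish.1 hwO).1
        omega
      have hle := sum_weight_le C (insert q O)
      rw [hins O q hq, h8, ← Finset.add_sum_erase _ _ hwq] at hle
      have hmem0 : (0 : GolayPt → ZMod 2) ∈ (vanish C (insert q O)).erase w :=
        Finset.mem_erase.2 ⟨Ne.symm hw0, zero_mem_vanish C _⟩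
      rw [← Finset.add_sum_erase _ _ hmem0] at hle
      have hrest : 14 * 8 ≤ ∑ v ∈ ((vanish C (insert q O)).erase w).erase 0, (support₂ v).card := by
        have hc : (((vanish C (insert q O)).erase w).erase 0).card = 14 := by
          rw [Finset.card_erase_of_mem hmem0, Finset.card_erase_of_mem hwq, (h16 q hq).1]
        have := Finset.card_nsmul_le_sum (((vanish C (insert q O)).erase w).erase 0)
          (fun v => (support₂ v).card) 8 fun v hv => by
            simp only [Finset.mem_erase] at hv
            exact h.eight_le v (mem_vanish.1 hv.2.2).1 hv.1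
        rw [hc, smul_eq_mul] at this
        exact this
      have := (h16 q hq).1
      omega
    have heq := sum_weight_eq C O fun i hi => by
      by_contra hz
      simp only [not_exists, not_and, not_not] at hz
      have hsub : vanish C O ⊆ vanish C (insert i O) := fun w hw =>
        mem_vanish.2 ⟨(mem_vanish.1 hw).1, Finset.forall_mem_insert .. |>.2 ⟨hz w hw, (mem_vanish.1 hw).2⟩⟩
      have := Finset.card_le_card hsub
      have := h16 i hi
      omega
    rw [← Finset.add_sum_erase _ _ (zero_mem_vanish C O), Finset.sum_congr rfl hw8, Finset.sum_const,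
      Finset.card_erase_of_mem (zero_mem_vanish C O), hO32, h8] at heq
    simp [support₂] at heq
  · by_contra hne
    simp only [not_exists, not_and, not_not] at hne
    have hA : j ∉ insert i (insert p O) := by
      simp only [Finset.mem_insert, not_or] at hj ⊢; exact ⟨hij.symm, hj⟩
    have hsub : vanish C (insert i (insert p O)) ⊆ vanish C (insert j (insert i (insert p O))) :=
      fun w hw => by
        have h1 := mem_vanish.1 hw
        refine mem_vanish.2 ⟨h1.1, Finset.forall_mem_insert .. |>.2 ⟨?_, h1.2⟩⟩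
        rw [← hne w (mem_vanish.2 ⟨h1.1, fun k hk => h1.2 k (Finset.mem_insert_of_mem hk)⟩)]
        exact h1.2 i (Finset.mem_insert_self ..)
    have hpl := h.plotkin (insert j (insert i (insert p O)))
    have := Finset.card_le_card hsub
    have := card_vanish_le_double C (insert p O) i
    rw [hins _ j hA, hins _ i hi, hins O p hp, h8] at hpl
    have := (h16 p hp).1
    omega

theorem sum_two_pow_lt (v : Fin 4 → ZMod 2) : ∑ k, (v k).val * 2 ^ (k : ℕ) < 16 := by
  have h0 := (v 0).val_lt; have h1 := (v 1).val_lt; have h2 := (v 2).val_lt; have h3 := (v 3).val_lt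
  simp only [Fin.sum_univ_four, Fin.val_zero, Fin.val_one, Fin.val_two,
    show ((3 : Fin 4) : ℕ) = 3 from rfl]
  omega

theorem bits_of_sum : ∀ (v : Fin 4 → ZMod 2) (k : Fin 4),
    (∑ j, (v j).val * 2 ^ (j : ℕ)).testBit k = (v k == 1) := by
  decide +kernel

/-- The affine generators: all of the outside, and the four coordinate functions on it. -/
def affMasks : List ℕ := [16776960, 11184640, 13421568, 15790080, 16711680]

theorem affMasks_bits : ∀ m < 24,
    ((16776960 : ℕ).testBit m = decide (8 ≤ m)) ∧
    (∀ k : Fin 4, (affMasks.getD (k + 1) 0).testBit m = (decide (8 ≤ m) && (m - 8).testBit k)) := by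
  decide +kernel

/-- Coordinates: an octad becomes the first eight points and the rest carries the affine code. -/
theorem IsCodeLike.exists_shape (h : IsCodeLike C) :
    ∃ σ : Equiv.Perm GolayPt, ∀ a ∈ affMasks, wordOf a ∈ pullCode C σ := by
  obtain ⟨o, ho, h8⟩ := h.exists_octad
  obtain ⟨-, ⟨u, hu, hu1⟩, hP⟩ := h.octad_facts ho h8
  set O := support₂ o
  have hOc : Oᶜ.card = 16 := by rw [Finset.card_compl, h8]; simp [GolayPt]
  obtain ⟨p, hp⟩ : ∃ p, p ∉ O := by
    obtain ⟨p, hp⟩ := Finset.card_pos.1 (by omega : 0 < Oᶜ.card); exact ⟨p, Finset.mem_compl.1 hp⟩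
  obtain ⟨h16, hnz, hsep⟩ := hP p hp
  set P : Submodule (ZMod 2) (GolayPt → ZMod 2) :=
    { carrier := {w | w ∈ vanish C (insert p O)}
      zero_mem' := zero_mem_vanish C _
      add_mem' := fun hv hw => add_mem_vanish C hv hw
      smul_mem' := fun a w hw => by
        rcases zmod2_cases a with rfl | rfl
        · rw [zero_smul]; exact zero_mem_vanish C _
        · rwa [one_smul] }
  have hPcard : Nat.card P = 16 := by
    rw [← h16, ← Nat.card_eq_finsetCard]; rfl
  have hrank : Module.finrank (ZMod 2) P = 4 := by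
    have h := Module.natCard_eq_pow_finrank (K := ZMod 2) (V := P)
    rw [hPcard, Nat.card_zmod] at h
    exact Nat.pow_right_injective (le_refl 2) (h.symm.trans (by norm_num))
  let b := Module.finBasisOfFinrankEq (ZMod 2) P hrank
  let ev : GolayPt → ℕ := fun i => ∑ k, ((b k : GolayPt → ZMod 2) i).val * 2 ^ (k : ℕ)
  have hagree : ∀ i j, ev i = ev j → ∀ w ∈ vanish C (insert p O), w i = w j := by
    intro i j hij w hw
    have hk : ∀ k, (b k : GolayPt → ZMod 2) i = (b k : GolayPt → ZMod 2) j := fun k => by
      have h1 := bits_of_sum (fun j' => (b j' : GolayPt → ZMod 2) i) k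
      have h2 := bits_of_sum (fun j' => (b j' : GolayPt → ZMod 2) j) k
      simp only [ev] at hij
      rw [hij, h2] at h1
      rcases zmod2_cases ((b k : GolayPt → ZMod 2) i) with a | a <;>
        rcases zmod2_cases ((b k : GolayPt → ZMod 2) j) with c | c <;> simp [a, c] at h1 ⊢
    have he := congrArg Subtype.val (b.sum_repr ⟨w, hw⟩)
    simp only [Submodule.coe_sum, Submodule.coe_smul] at he
    rw [← he]
    simp only [Finset.sum_apply, Pi.smul_apply, smul_eq_mul, hk]
  have hinj : Set.InjOn ev ↑(Oᶜ) := by
    intro i hi j hj hij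
    simp only [Finset.coe_compl, Set.mem_compl_iff, Finset.mem_coe] at hi hj
    have key := hagree i j hij
    by_contra hne
    by_cases hip : i = p
    · subst hip
      obtain ⟨w, hw, hwj⟩ := hnz j (by simp [Ne.symm hne, hj])
      rw [← key w hw, (mem_vanish.1 hw).2 i (Finset.mem_insert_self ..)] at hwj
      exact hwj rfl
    · by_cases hjp : j = p
      · subst hjp
        obtain ⟨w, hw, hwi⟩ := hnz i (by simp [hne, hi])
        rw [key w hw, (mem_vanish.1 hw).2 j (Finset.mem_insert_self ..)] at hwi
        exact hwi rfl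
      · obtain ⟨w, hw, hwij⟩ := hsep i (by simp [hip, hi]) j (by simp [hjp, hj]) hne
        exact hwij (key w hw)
  let eO : O ≃ Fin 8 := Fintype.equivOfCardEq (by rw [Fintype.card_fin, Fintype.card_coe, h8])
  let pos : GolayPt → ℕ := fun i => if hi : i ∈ O then (eO ⟨i, hi⟩ : ℕ) else 8 + ev i
  have hposlt : ∀ i, pos i < 24 := fun i => by
    simp only [pos]; split_ifs
    · omega
    · have := sum_two_pow_lt fun k => (b k : GolayPt → ZMod 2) i
      simp only [ev]; omega
  have hposinj : Function.Injective fun i => pt (pos i) := by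
    intro i j hij
    have := congrArg idx hij
    simp only [CfsgLib.Golay.idx_pt (hposlt _)] at this
    simp only [pos] at this
    split_ifs at this with hi hj hj
    · exact Subtype.ext_iff.1 (eO.injective (Fin.ext this))
    · omega
    · omega
    · exact hinj (by simpa using hi) (by simpa using hj) (by omega)
  let π : Equiv.Perm GolayPt := Equiv.ofBijective _ (Finite.injective_iff_bijective.1 hposinj)
  refine ⟨π, ?_⟩
  have hval : ∀ (n : ℕ) (i : GolayPt), wordOf n (π i) = if n.testBit (pos i) then 1 else 0 := by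
    intro n i
    simp only [wordOf, π, Equiv.ofBijective_apply, CfsgLib.Golay.idx_pt (hposlt i)]
  have hsplit : ∀ i, (i ∈ O → pos i < 8) ∧ (i ∉ O → pos i = 8 + ev i) := fun i =>
    ⟨fun hi => by simp only [pos, dif_pos hi]; omega, fun hi => by simp only [pos, dif_neg hi]⟩
  have hone : (fun i => wordOf 16776960 (π i)) = u := by
    funext i
    rw [hval, (affMasks_bits _ (hposlt i)).1]
    by_cases hi : i ∈ O
    · simp [not_le.2 ((hsplit i).1 hi), (mem_vanish.1 hu).2 i hi]
    · simp [(hsplit i).2 hi, hu1 i hi]
  have hcoord : ∀ k : Fin 4, (fun i => wordOf (affMasks.getD (k + 1) 0) (π i)) = (b k : GolayPt → ZMod 2) := by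
    intro k
    funext i
    rw [hval, (affMasks_bits _ (hposlt i)).2 k]
    by_cases hi : i ∈ O
    · have : (b k : GolayPt → ZMod 2) i = 0 :=
        (mem_vanish.1 (b k).2).2 i (Finset.mem_insert_of_mem hi)
      simp [not_le.2 ((hsplit i).1 hi), this]
    · rw [(hsplit i).2 hi, Nat.add_sub_cancel_left]
      simp only [ev, bits_of_sum (fun j' => (b j' : GolayPt → ZMod 2) i) k]
      rcases zmod2_cases ((b k : GolayPt → ZMod 2) i) with a | a <;> simp [a]
  intro a ha
  rw [mem_pullCode]
  simp only [affMasks, List.mem_cons, List.not_mem_nil, or_false] at ha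
  rcases ha with rfl | rfl | rfl | rfl | rfl
  · rw [hone]; exact (mem_vanish.1 hu).1
  · have := hcoord 0; simp [affMasks] at this; rw [this]; exact (mem_vanish.1 (b 0).2).1
  · have := hcoord 1; simp [affMasks] at this; rw [this]; exact (mem_vanish.1 (b 1).2).1
  · have := hcoord 2; simp [affMasks] at this; rw [this]; exact (mem_vanish.1 (b 2).2).1
  · have := hcoord 3; simp [affMasks] at this; rw [this]; exact (mem_vanish.1 (b 3).2).1

end CfsgLib.Leech.CodeUnique
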