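import Cfsg.Agent.Lib.Leech.CodeShape

/-!
Uniqueness of the self-dual doubly even code of length 24 and minimum weight 8.
-/

set_option autoImplicit false

namespace CfsgLib.Leech.CodeUnique

open Cfsg Finset
open scoped Classical
open CfsgLib.Golay (wordOf idx pt unmask popc spanMasks allSpan)

/-- The glue values of the eight points of the octad (shifted to the bits 8, …, 23). -/
def glueHigh (a : ℕ) : ℕ :=
  256 * ([0, 6376, 11848, 22208, 27808, 29224, 46216, 51808] : List ℕ).getD a 0

/-- The glue mask of a point of the octad. -/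
def glue (a : ℕ) : ℕ := 2 ^ a ^^^ glueHigh a

/-- Twelve canonical generators. -/
def canonGens : List ℕ := affMasks ++ ([1, 2, 3, 4, 5, 6, 7] : List ℕ).map fun i => glue 0 ^^^ glue i

/-- The free bits after normalisation. -/
def freeBits : List ℕ := [11, 13, 14, 15, 17, 18, 19, 20, 21, 22, 23]

theorem free_check : allSpan (freeBits.map (2 ^ ·)) (fun h =>
    (!((affMasks.all fun a => popc (h &&& a) % 2 == 0) && popc h % 4 == 2)) ||
      (List.range 8).any fun a => (List.range 8).any fun b =>
        decide (a < b) && h == glueHigh a ^^^ glueHigh b) = true := by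
  decide +kernel

theorem share_check : ((List.range 8).all fun a => (List.range 8).all fun b =>
    (List.range 8).all fun c => (List.range 8).all fun d =>
      !(decide (a < b) && decide (c < d) &&
        popc (glueHigh a ^^^ glueHigh b ^^^ (glueHigh c ^^^ glueHigh d)) % 4 == 2) ||
      (a == c && b != d) || (a == d && b != c) || (b == c && a != d) || (b == d && a != c)) =
    true := by
  decide +kernel

theorem high_check : ((List.range 8).all fun a => glueHigh a < 2 ^ 24 && glueHigh a &&& 255 == 0) = true ∧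
    ((List.range 8).all fun i => (List.range 8).all fun j => i == j || popc (2 ^ i ^^^ 2 ^ j) == 2) = true ∧
    (canonGens.all fun n => n < 2 ^ 24) = true ∧ CfsgLib.Golay.indepMasks canonGens = true ∧
    (List.range 24).all (fun p => [(0, 16776960), (1, 11184640), (2, 13421568), (4, 15790080),
      (8, 16711680)].all fun r => decide (p ≠ 8 + r.1) || r.2.testBit p) = true := by
  decide +kernel

theorem mem_spanMasks_pow : ∀ (bs : List ℕ), bs.Nodup → ∀ h : ℕ,
    (∀ m, h.testBit m = true → m ∈ bs) → h ∈ spanMasks (bs.map (2 ^ ·))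
  | [], _, h, hh => by
    have : h = 0 := Nat.eq_of_testBit_eq fun m => by
      rw [Nat.zero_testBit]
      by_contra hne
      exact absurd (hh m (by simpa using hne)) List.not_mem_nil
    subst this; exact CfsgLib.Golay.zero_mem_spanMasks _
  | b :: bs, hnd, h, hh => by
    rw [List.nodup_cons] at hnd
    simp only [List.map_cons, spanMasks, List.mem_append, List.mem_map]
    by_cases hb : h.testBit b = true
    · right
      refine ⟨2 ^ b ^^^ h, mem_spanMasks_pow bs hnd.2 _ fun m hm => ?_, by
        rw [← Nat.xor_assoc, Nat.xor_self, Nat.zero_xor]⟩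
      rw [Nat.testBit_xor, Nat.testBit_two_pow] at hm
      by_cases hmb : b = m
      · subst hmb; simp [hb] at hm
      · simp [hmb] at hm
        exact (List.mem_cons.1 (hh m hm)).resolve_left (Ne.symm hmb)
    · left
      refine mem_spanMasks_pow bs hnd.2 h fun m hm => ?_
      exact (List.mem_cons.1 (hh m hm)).resolve_left fun e => hb (e ▸ hm)

theorem exists_mask (w : GolayPt → ZMod 2) : ∃ n < 2 ^ 24, wordOf n = w := by
  obtain ⟨n, hn, h⟩ := CfsgLib.Golay.exists_unmask (support₂ w)
  exact ⟨n, hn, support₂_injective (by rw [CfsgLib.Golay.support₂_wordOf, h])⟩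

theorem popc_wordOf (n : ℕ) : (support₂ (wordOf n)).card = popc n := by
  rw [CfsgLib.Golay.support₂_wordOf, CfsgLib.Golay.card_unmask]

theorem popc_xor (a b : ℕ) : popc (a ^^^ b) + 2 * popc (a &&& b) = popc a + popc b := by
  rw [← CfsgLib.Golay.card_unmask, ← CfsgLib.Golay.card_unmask, ← CfsgLib.Golay.card_unmask,
    ← CfsgLib.Golay.card_unmask, CfsgLib.Golay.unmask_xor, CfsgLib.Golay.unmask_and]
  have h1 := Finset.card_union_add_card_inter (unmask a) (unmask b)
  have h2 : symmDiff (unmask a) (unmask b) = (unmask a ∪ unmask b) \ (unmask a ∩ unmask b) := by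
    ext x; simp only [Finset.mem_symmDiff, Finset.mem_sdiff, Finset.mem_union, Finset.mem_inter]; tauto
  have h3 := Finset.card_sdiff_add_card_eq_card
    (s := unmask a ∩ unmask b) (t := unmask a ∪ unmask b) Finset.inter_subset_union
  rw [← h2] at h3
  omega

variable {C : Submodule (ZMod 2) (GolayPt → ZMod 2)}

theorem IsCodeLike.glue_pair (h : IsCodeLike C) (haff : ∀ a ∈ affMasks, wordOf a ∈ C) (i : ℕ)
    (hi0 : 0 < i) (hi : i < 8) :
    ∃ a b, a < b ∧ b < 8 ∧ wordOf ((2 ^ 0 ^^^ 2 ^ i) ^^^ (glueHigh a ^^^ glueHigh b)) ∈ C := by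
  obtain ⟨c, hc, hlow⟩ : ∃ c ∈ C, ∀ m < 8, c (pt m) = if m = 0 ∨ m = i then 1 else 0 := by
    have hO : ∀ p, p ∈ support₂ (wordOf 16776960) ↔ 8 ≤ idx p := fun p => by
      rw [CfsgLib.Golay.support₂_wordOf, CfsgLib.Golay.mem_unmask,
        (affMasks_bits _ (CfsgLib.Golay.idx_lt p)).1]
      simp
    set A : Finset GolayPt := Finset.univ.filter fun p => idx p < 8 with hA
    have hker : (vanish C A).card ≤ 32 := by
      have hmem : ∀ p, p ∈ A ↔ idx p < 8 := fun p => by simp [hA]
      have hcardA : A.card = 8 := by rw [hA]; decide +kernel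
      obtain ⟨p, hp⟩ : ∃ p, p ∉ A := ⟨pt 23, by rw [hmem, CfsgLib.Golay.idx_pt (by norm_num)]; omega⟩
      have hpl := h.plotkin (insert p A)
      rw [Finset.card_insert_of_notMem hp, hcardA] at hpl
      have := card_vanish_le_double C A p
      omega
    let r : (GolayPt → ZMod 2) → (Fin 8 → ZMod 2) := fun w j => w (pt j)
    set E := Finset.univ.filter fun f : Fin 8 → ZMod 2 => ∑ j, f j = 0
    have hr : ∀ w ∈ vanish C ∅, r w ∈ E := fun w hw => by
      simp only [E, Finset.mem_filter, Finset.mem_univ, true_and, r]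
      have hw' := (mem_vanish.1 hw).1
      have h1 := h.even_inter hw' (haff 16776960 (by simp [affMasks]))
      have h2 := h.four_dvd w hw'
      have e : (support₂ w).card = (support₂ w ∩ support₂ (wordOf 16776960)).card +
          ((Finset.univ : Finset (Fin 8)).filter fun j : Fin 8 => w (pt (j : ℕ)) ≠ 0).card := by
        rw [← Finset.card_inter_add_card_sdiff (support₂ w) (support₂ (wordOf 16776960))]
        congr 1
        refine (Finset.card_bij (fun (j : Fin 8) _ => pt j) ?_ ?_ ?_).symm
        · intro j hj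
          simp only [Finset.mem_filter, Finset.mem_univ, true_and] at hj
          rw [Finset.mem_sdiff, hO, CfsgLib.Golay.idx_pt (by omega)]
          exact ⟨by simp [support₂, hj], by omega⟩
        · intro a _ b _ e
          have := congrArg idx e
          rw [CfsgLib.Golay.idx_pt (by omega), CfsgLib.Golay.idx_pt (by omega)] at this
          exact Fin.ext this
        · intro p hp
          rw [Finset.mem_sdiff, hO] at hp
          refine ⟨⟨idx p, by omega⟩, ?_, CfsgLib.Golay.pt_idx p⟩
          simp only [Finset.mem_filter, Finset.mem_univ, true_and, CfsgLib.Golay.pt_idx]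
          exact (Finset.mem_filter.1 hp.1).2
      have hev : 2 ∣ ((Finset.univ : Finset (Fin 8)).filter fun j : Fin 8 => w (pt (j : ℕ)) ≠ 0).card := by omega
      rw [← ZMod.natCast_eq_zero_iff, Finset.card_filter, Nat.cast_sum] at hev
      refine Eq.trans (Finset.sum_congr rfl fun j _ => ?_) hev
      rcases zmod2_cases (w (pt j)) with a | a <;> simp [a]
    have hfib : ∀ f ∈ (vanish C ∅).image r, ((vanish C ∅).filter fun w => r w = f).card ≤
        (vanish C A).card := fun f hf => by
      obtain ⟨u, hu, rfl⟩ := Finset.mem_image.1 hf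
      refine Finset.card_le_card_of_injOn (· + u) (fun w hw => ?_) fun a _ b _ => add_right_cancel
      simp only [Finset.coe_filter, Set.mem_ofPred_eq] at hw
      rw [Finset.mem_coe, mem_vanish]
      refine ⟨C.add_mem (mem_vanish.1 hw.1).1 (mem_vanish.1 hu).1, fun p hp => ?_⟩
      have hp' : idx p < 8 := by simpa [hA] using hp
      have : w p = u p := by
        have := congrFun hw.2 ⟨idx p, hp'⟩
        simpa [r, CfsgLib.Golay.pt_idx] using this
      show w p + u p = 0
      rw [this]; exact ZModModule.add_self _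
    have hcount := Finset.card_le_mul_card_image (f := r) (vanish C ∅) (vanish C A).card hfib
    rw [h.card_vanish_empty] at hcount
    have him : (vanish C ∅).image r ⊆ E := fun f hf => by
      obtain ⟨w, hw, rfl⟩ := Finset.mem_image.1 hf; exact hr w hw
    have heq : (vanish C ∅).image r = E :=
      Finset.eq_of_subset_of_card_le him (by rw [card_even_patterns]; nlinarith)
    let f : Fin 8 → ZMod 2 := fun j => if (j : ℕ) = 0 ∨ (j : ℕ) = i then 1 else 0
    have hf : f ∈ E := by
      simp only [E, Finset.mem_filter, Finset.mem_univ, true_and, f]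
      have : ∀ i < 8, 0 < i → ∑ j : Fin 8, (if (j : ℕ) = 0 ∨ (j : ℕ) = i then (1 : ZMod 2) else 0) = 0 := by
        decide +kernel
      exact this i hi hi0
    rw [← heq] at hf
    obtain ⟨c, hc, hcf⟩ := Finset.mem_image.1 hf
    exact ⟨c, (mem_vanish.1 hc).1, fun m hm => congrFun hcf ⟨m, hm⟩⟩
  obtain ⟨n, hn, rfl⟩ := exists_mask c
  -- normalise at five outside positions by the affine part
  have hadd : ∀ {a b : ℕ}, wordOf a ∈ C → wordOf b ∈ C → wordOf (a ^^^ b) ∈ C := fun ha hb => by
    rw [CfsgLib.Golay.wordOf_xor]; exact C.add_mem ha hb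
  let s0 := n.testBit 8
  let k0 : ℕ := bif s0 then 16776960 else 0
  let k1 : ℕ := bif n.testBit 9 ^^ s0 then 11184640 else 0
  let k2 : ℕ := bif n.testBit 10 ^^ s0 then 13421568 else 0
  let k3 : ℕ := bif n.testBit 12 ^^ s0 then 15790080 else 0
  let k4 : ℕ := bif n.testBit 16 ^^ s0 then 16711680 else 0
  have hk : ∀ (t : Bool) (a : ℕ), a ∈ affMasks → wordOf (bif t then a else 0) ∈ C := fun t a ha => by
    cases t
    · rw [cond_false, CfsgLib.Golay.wordOf_zero]; exact C.zero_mem
    · exact haff a ha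
  set n' := n ^^^ (k0 ^^^ k1 ^^^ k2 ^^^ k3 ^^^ k4) with hn'
  have hn'C : wordOf n' ∈ C := hadd hc (hadd (hadd (hadd (hadd (hk _ _ (by simp [affMasks]))
    (hk _ _ (by simp [affMasks]))) (hk _ _ (by simp [affMasks]))) (hk _ _ (by simp [affMasks])))
    (hk _ _ (by simp [affMasks])))
  have hlow' : ∀ m < 8, n'.testBit m = decide (m = 0 ∨ m = i) := by
    intro m hm
    have h1 := hlow m hm
    simp only [wordOf, CfsgLib.Golay.idx_pt (show m < 24 by omega)] at h1
    have hz : ∀ a ∈ affMasks, ∀ m < 8, a.testBit m = false := by decide +kernel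
    have hzc : ∀ (t : Bool) (a : ℕ), a ∈ affMasks → (bif t then a else 0).testBit m = false := by
      intro t a ha; cases t
      · simp
      · simpa using hz a ha m hm
    simp only [hn', k0, k1, k2, k3, k4, Nat.testBit_xor, hzc _ _ (show 16776960 ∈ affMasks by simp [affMasks]),
      hzc _ _ (show 11184640 ∈ affMasks by simp [affMasks]),
      hzc _ _ (show 13421568 ∈ affMasks by simp [affMasks]),
      hzc _ _ (show 15790080 ∈ affMasks by simp [affMasks]),
      hzc _ _ (show 16711680 ∈ affMasks by simp [affMasks]), Bool.xor_false]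
    by_cases hmi : m = 0 ∨ m = i <;> cases hb : n.testBit m <;> simp_all
  have hfive : ∀ m ∈ [8, 9, 10, 12, 16], n'.testBit m = false := by
    intro m hm
    have tb : ∀ m ∈ [8, 9, 10, 12, 16], ∀ t : Bool, ∀ a ∈ affMasks,
        (bif t then a else 0).testBit m = (t && a.testBit m) := fun m _ t a _ => by cases t <;> simp
    simp only [hn', k0, k1, k2, k3, k4, Nat.testBit_xor, tb m hm _ 16776960 (by simp [affMasks]),
      tb m hm _ 11184640 (by simp [affMasks]), tb m hm _ 13421568 (by simp [affMasks]),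
      tb m hm _ 15790080 (by simp [affMasks]), tb m hm _ 16711680 (by simp [affMasks]), s0]
    simp only [List.mem_cons, List.not_mem_nil, or_false] at hm
    rcases hm with rfl | rfl | rfl | rfl | rfl <;>
      cases n.testBit 8 <;> cases n.testBit 9 <;> cases n.testBit 10 <;> cases n.testBit 12 <;>
      cases n.testBit 16 <;> decide +kernel
  have hn'lt : n' < 2 ^ 24 := by
    have hle : ∀ (t : Bool) (a : ℕ), a ∈ affMasks → (bif t then a else 0) < 2 ^ 24 := by
      intro t a ha; cases t
      · simp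
      · revert a; decide +kernel
    exact Nat.xor_lt_two_pow hn (Nat.xor_lt_two_pow (Nat.xor_lt_two_pow (Nat.xor_lt_two_pow
      (Nat.xor_lt_two_pow (hle _ _ (by simp [affMasks])) (hle _ _ (by simp [affMasks])))
      (hle _ _ (by simp [affMasks]))) (hle _ _ (by simp [affMasks]))) (hle _ _ (by simp [affMasks])))
  set L := 2 ^ 0 ^^^ 2 ^ i with hL
  set g := L ^^^ n' with hg
  have hbits : ∀ m, g.testBit m = true → m ∈ freeBits := by
    intro m hm
    rw [hg, hL, Nat.testBit_xor, Nat.testBit_xor, Nat.testBit_two_pow, Nat.testBit_two_pow] at hm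
    by_contra hnot
    by_cases hm8 : m < 8
    · rw [hlow' m hm8] at hm
      by_cases h0 : m = 0
      · subst h0; simp [(ne_of_gt hi0)] at hm
      · by_cases hmi : m = i
        · subst hmi; simp [Ne.symm h0] at hm
        · simp [h0, hmi, Ne.symm h0, Ne.symm hmi] at hm
    · simp [show ¬(0 = m) by omega, show ¬(i = m) by omega] at hm
      by_cases hm24 : m < 24
      · have : ∀ m < 24, 8 ≤ m → m ∉ freeBits → m ∈ [8, 9, 10, 12, 16] := by decide +kernel
        rw [hfive m (this m hm24 (by omega) hnot)] at hm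
        exact Bool.false_ne_true hm
      · rw [Nat.testBit_lt_two_pow (lt_of_lt_of_le hn'lt (Nat.pow_le_pow_right two_pos (by omega)))] at hm
        exact Bool.false_ne_true hm
  have hgl : ∀ a ∈ affMasks, popc (g &&& a) % 2 = 0 := by
    intro a ha
    have h1 := h.four_dvd _ hn'C
    have h2 := h.four_dvd _ (haff a ha)
    have h3 := h.four_dvd _ (hadd hn'C (haff a ha))
    rw [popc_wordOf] at h1 h2 h3
    have h4 := popc_xor n' a
    have hLa : L &&& a = 0 := by
      have : ∀ i < 8, ∀ a ∈ affMasks, (2 ^ 0 ^^^ 2 ^ i) &&& a = 0 := by decide +kernel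
      exact this i hi a ha
    rw [show g &&& a = n' &&& a by rw [hg, Nat.and_xor_distrib_right, hLa, Nat.zero_xor]]
    omega
  have hg2 : popc g % 4 = 2 := by
    have h1 := h.four_dvd _ hn'C
    rw [popc_wordOf] at h1
    have hLn : L &&& g = 0 := Nat.eq_of_testBit_eq fun m => by
      rw [Nat.zero_testBit, Nat.testBit_and]
      cases hb : g.testBit m
      · simp
      · have hmem := hbits m hb
        have : ∀ i < 8, ∀ m ∈ freeBits, (2 ^ 0 ^^^ 2 ^ i).testBit m = false := by decide +kernel
        rw [hL, this i hi m hmem]; rfl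
    have h4 := popc_xor L g
    rw [hLn, show L ^^^ g = n' by rw [hg, ← Nat.xor_assoc, Nat.xor_self, Nat.zero_xor],
      show popc 0 = 0 from rfl] at h4
    have hL2 : popc L = 2 := by
      have := List.all_eq_true.1 (List.all_eq_true.1 high_check.2.1 0 (by simp)) i (List.mem_range.2 hi)
      simp only [Bool.or_eq_true, beq_iff_eq] at this
      exact this.resolve_left (by omega)
    omega
  have hmem := mem_spanMasks_pow freeBits (by decide) g hbits
  have hres := CfsgLib.Golay.allSpan_iff.1 free_check g hmem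
  simp only [Bool.or_eq_true, Bool.not_eq_true', Bool.and_eq_false_iff, List.any_eq_true,
    List.mem_range, Bool.and_eq_true, decide_eq_true_eq, beq_iff_eq, List.all_eq_false] at hres
  rcases hres with (⟨a, ha, hna⟩ | hne) | ⟨a, -, b, hb, hab, he⟩
  · exact absurd (by simpa using hgl a ha) hna
  · exact absurd hg2 (by simpa using hne)
  · refine ⟨a, b, hab, hb, ?_⟩
    rw [← he, hg, ← Nat.xor_assoc, Nat.xor_self, Nat.zero_xor]
    exact hn'C

theorem wordOf_xor_mem {a b : ℕ} (ha : wordOf a ∈ C) (hb : wordOf b ∈ C) : wordOf (a ^^^ b) ∈ C := by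
  rw [CfsgLib.Golay.wordOf_xor]; exact C.add_mem ha hb

theorem xor_four (a b c d : ℕ) : (a ^^^ b) ^^^ (a ^^^ c) = b ^^^ c ∧
    (a ^^^ b) ^^^ (c ^^^ d) = (a ^^^ c) ^^^ (b ^^^ d) := by
  constructor <;> apply Nat.eq_of_testBit_eq <;> intro m <;> simp only [Nat.testBit_xor] <;>
    cases a.testBit m <;> cases b.testBit m <;> cases c.testBit m <;> first | rfl | (cases d.testBit m <;> rfl)

theorem glueHigh_low {a : ℕ} (ha : a < 8) {m : ℕ} (hm : m < 8) : (glueHigh a).testBit m = false := by
  have h := List.all_eq_true.1 high_check.1 a (List.mem_range.2 ha)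
  simp only [Bool.and_eq_true, beq_iff_eq, decide_eq_true_eq] at h
  have h' := congrArg (fun n => n.testBit m) h.2
  have h255 : (255 : ℕ).testBit m = true := by
    have : ∀ m < 8, (255 : ℕ).testBit m = true := by decide +kernel
    exact this m hm
  simpa [Nat.testBit_and, h255] using h'

/-- The labels of the octad points are determined by a single permutation. -/
theorem IsCodeLike.exists_labels (h : IsCodeLike C) (haff : ∀ a ∈ affMasks, wordOf a ∈ C) :
    ∃ (k : ℕ) (τ : ℕ → ℕ), k < 8 ∧ τ 0 = k ∧ (∀ i < 8, τ i < 8) ∧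
      (∀ i < 8, ∀ j < 8, τ i = τ j → i = j) ∧
      ∀ i, 0 < i → i < 8 → wordOf ((2 ^ 0 ^^^ 2 ^ i) ^^^ (glueHigh k ^^^ glueHigh (τ i))) ∈ C := by
  have hg := h.glue_pair haff
  choose A B hAB hB hmem using hg
  have hA : ∀ i h0 h8, A i h0 h8 < 8 := fun i h0 h8 => lt_trans (hAB i h0 h8) (hB i h0 h8)
  -- the two ends attached to a point
  have hmeet : ∀ i j (hi0 : 0 < i) (hi : i < 8) (hj0 : 0 < j) (hj : j < 8), i ≠ j →
      (A i hi0 hi = A j hj0 hj ∧ B i hi0 hi ≠ B j hj0 hj) ∨
      (A i hi0 hi = B j hj0 hj ∧ B i hi0 hi ≠ A j hj0 hj) ∨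
      (B i hi0 hi = A j hj0 hj ∧ A i hi0 hi ≠ B j hj0 hj) ∨
      (B i hi0 hi = B j hj0 hj ∧ A i hi0 hi ≠ A j hj0 hj) := by
    intro i j hi0 hi hj0 hj hij
    have hsum := wordOf_xor_mem (hmem i hi0 hi) (hmem j hj0 hj)
    rw [(xor_four _ _ _ _).2, (xor_four _ _ _ 0).1] at hsum
    have h4 := h.four_dvd _ hsum
    rw [popc_wordOf] at h4
    set H := glueHigh (A i hi0 hi) ^^^ glueHigh (B i hi0 hi) ^^^
      (glueHigh (A j hj0 hj) ^^^ glueHigh (B j hj0 hj))
    have hdis : (2 ^ i ^^^ 2 ^ j) &&& H = 0 := Nat.eq_of_testBit_eq fun m => by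
      rw [Nat.zero_testBit, Nat.testBit_and]
      by_cases hm : m < 8
      · simp [H, Nat.testBit_xor, glueHigh_low (hA i hi0 hi) hm, glueHigh_low (hB i hi0 hi) hm,
          glueHigh_low (hA j hj0 hj) hm, glueHigh_low (hB j hj0 hj) hm]
      · rw [Nat.testBit_xor, Nat.testBit_two_pow, Nat.testBit_two_pow]
        simp [show i ≠ m by omega, show j ≠ m by omega]
    have hp := popc_xor (2 ^ i ^^^ 2 ^ j) H
    rw [hdis, show popc 0 = 0 from rfl] at hp
    have h2 : popc (2 ^ i ^^^ 2 ^ j) = 2 := by
      have := List.all_eq_true.1 (List.all_eq_true.1 high_check.2.1 i (List.mem_range.2 hi)) j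
        (List.mem_range.2 hj)
      simp only [Bool.or_eq_true, beq_iff_eq] at this
      exact this.resolve_left hij
    have hH : popc H % 4 = 2 := by omega
    simp only [H] at hH
    have hs := List.all_eq_true.1 (List.all_eq_true.1 (List.all_eq_true.1 (List.all_eq_true.1
      share_check _ (List.mem_range.2 (hA i hi0 hi))) _ (List.mem_range.2 (hB i hi0 hi)))
      _ (List.mem_range.2 (hA j hj0 hj))) _ (List.mem_range.2 (hB j hj0 hj))
    simp only [Bool.or_eq_true, Bool.not_eq_true', Bool.and_eq_false_iff, Bool.and_eq_true,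
      decide_eq_false_iff_not, beq_eq_false_iff_ne, beq_iff_eq, bne_iff_ne] at hs
    have := hAB i hi0 hi
    have := hAB j hj0 hj
    omega
  set a1 := A 1 (by norm_num) (by norm_num) with ha1
  set b1 := B 1 (by norm_num) (by norm_num) with hb1
  -- the common end
  obtain ⟨k, hk, hall⟩ : ∃ k < 8, ∀ i h0 h8, A i h0 h8 = k ∨ B i h0 h8 = k := by
    by_cases hca : ∀ i h0 h8, A i h0 h8 = a1 ∨ B i h0 h8 = a1
    · exact ⟨a1, hA _ _ _, hca⟩
    · by_cases hcb : ∀ i h0 h8, A i h0 h8 = b1 ∨ B i h0 h8 = b1
      · exact ⟨b1, hB _ _ _, hcb⟩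
      · exfalso
        simp only [not_forall, not_or] at hca hcb
        obtain ⟨p, hp0, hp8, hpa, hpa'⟩ := hca
        obtain ⟨q, hq0, hq8, hqb, hqb'⟩ := hcb
        have hp1 : p ≠ 1 := by rintro rfl; exact hpa rfl
        have hq1 : q ≠ 1 := by rintro rfl; exact hqb' rfl
        have hpq : p ≠ q := by
          rintro rfl
          have := hmeet p 1 hp0 hp8 (by norm_num) (by norm_num) hp1
          omega
        obtain ⟨r, hr0, hr8, hrp, hrq, hr1⟩ : ∃ r, 0 < r ∧ r < 8 ∧ r ≠ p ∧ r ≠ q ∧ r ≠ 1 := by
          by_cases e2 : p ≠ 2 ∧ q ≠ 2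
          · exact ⟨2, by omega, by omega, by omega, by omega, by omega⟩
          · by_cases e3 : p ≠ 3 ∧ q ≠ 3
            · exact ⟨3, by omega, by omega, by omega, by omega, by omega⟩
            · exact ⟨4, by omega, by omega, by omega, by omega, by omega⟩
        have m1 := hmeet r 1 hr0 hr8 (by norm_num) (by norm_num) hr1
        have m2 := hmeet r p hr0 hr8 hp0 hp8 hrp
        have m3 := hmeet r q hr0 hr8 hq0 hq8 hrq
        have m4 := hmeet p 1 hp0 hp8 (by norm_num) (by norm_num) hp1
        have m5 := hmeet q 1 hq0 hq8 (by norm_num) (by norm_num) hq1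
        have m6 := hmeet p q hp0 hp8 hq0 hq8 hpq
        have := hAB p hp0 hp8
        have := hAB q hq0 hq8
        have := hAB r hr0 hr8
        have := hAB 1 (by norm_num) (by norm_num)
        simp only [← ha1, ← hb1] at *
        omega
  let τ : ℕ → ℕ := fun i => if h : 0 < i ∧ i < 8 then
    (if A i h.1 h.2 = k then B i h.1 h.2 else A i h.1 h.2) else k
  have hτ : ∀ i h0 h8, τ i = (if A i h0 h8 = k then B i h0 h8 else A i h0 h8) := fun i h0 h8 =>
    dif_pos ⟨h0, h8⟩
  refine ⟨k, τ, hk, dif_neg (by omega), fun i hi => ?_, fun i hi j hj hij => ?_, fun i h0 h8 => ?_⟩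
  · by_cases h0 : 0 < i
    · rw [hτ i h0 hi]; split_ifs
      exacts [hB .., hA ..]
    · simp only [τ]; rw [dif_neg (fun h => h0 h.1)]; exact hk
  · by_contra hne
    have hτ0 : ∀ i, ¬ 0 < i → τ i = k := fun i h0 => dif_neg (fun h => h0 h.1)
    have hne' : ∀ i h0 h8, τ i ≠ k := fun i h0 h8 => by
      rw [hτ i h0 h8]
      have := hAB i h0 h8
      have := hall i h0 h8
      split_ifs <;> omega
    by_cases hi0 : 0 < i <;> by_cases hj0 : 0 < j
    · rw [hτ i hi0 hi, hτ j hj0 hj] at hij
      have := hmeet i j hi0 hi hj0 hj hne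
      have := hAB i hi0 hi
      have := hAB j hj0 hj
      have := hall i hi0 hi
      have := hall j hj0 hj
      split_ifs at hij <;> omega
    · exact hne' i hi0 hi (hij.trans (hτ0 j hj0))
    · exact hne' j hj0 hj (hij.symm.trans (hτ0 i hi0))
    · omega
  · rw [hτ i h0 h8]
    have := hmem i h0 h8
    split_ifs with hAk
    · rw [hAk] at this; exact this
    · rw [(hall i h0 h8).resolve_left hAk, Nat.xor_comm (glueHigh (A i h0 h8))] at this; exact this

theorem wordOf_two_pow_comp (π : Equiv.Perm GolayPt) {m m' : ℕ} (hm : m < 24) (hm' : m' < 24)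
    (hπ : π (pt m) = pt m') : (fun p => wordOf (2 ^ m') (π p)) = wordOf (2 ^ m) := by
  have h1 : ∀ (m : ℕ), m < 24 → ∀ q, wordOf (2 ^ m) q = if q = pt m then 1 else 0 := fun m hm q => by
    simp only [wordOf, Nat.testBit_two_pow, decide_eq_true_eq]
    refine if_congr ⟨fun e => ?_, fun e => by rw [e, CfsgLib.Golay.idx_pt hm]⟩ rfl rfl
    rw [e, CfsgLib.Golay.pt_idx]
  funext p
  rw [h1 m' hm', h1 m hm, ← hπ]
  simp only [EmbeddingLike.apply_eq_iff_eq]

/-- Normal form. -/
theorem IsCodeLike.exists_canonical (h : IsCodeLike C) :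
    ∃ σ : Equiv.Perm GolayPt, ∀ w, w ∈ pullCode C σ ↔ ∃ n ∈ spanMasks canonGens, wordOf n = w := by
  obtain ⟨σ, hσ⟩ := h.exists_shape
  have h' := h.pull σ
  obtain ⟨k, τ, hk, hτ0, hτlt, hτinj, hglue⟩ := h'.exists_labels hσ
  let f : GolayPt → GolayPt := fun p => if idx p < 8 then pt (τ (idx p)) else p
  have hf : Function.Injective f := by
    intro p q hpq
    simp only [f] at hpq
    split_ifs at hpq with hp hq hq
    · have := congrArg idx hpq
      rw [CfsgLib.Golay.idx_pt (by have := hτlt _ hp; omega),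
        CfsgLib.Golay.idx_pt (by have := hτlt _ hq; omega)] at this
      exact CfsgLib.Golay.idx_injective (hτinj _ hp _ hq this)
    · have := congrArg idx hpq
      rw [CfsgLib.Golay.idx_pt (by have := hτlt _ hp; omega)] at this
      have := hτlt _ hp; omega
    · have := congrArg idx hpq
      rw [CfsgLib.Golay.idx_pt (by have := hτlt _ hq; omega)] at this
      have := hτlt _ hq; omega
    · exact hpq
  let π : Equiv.Perm GolayPt := Equiv.ofBijective f (Finite.injective_iff_bijective.1 hf)
  set D := pullCode (pullCode C σ) π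
  have hDC : IsCodeLike D := h'.pull π
  have hhigh : ∀ n : ℕ, (∀ m < 8, n.testBit m = false) → (fun p => wordOf n (π p)) = wordOf n := by
    intro n hn
    funext p
    show wordOf n (f p) = wordOf n p
    by_cases hp : idx p < 8
    · simp only [f, if_pos hp, wordOf, CfsgLib.Golay.idx_pt (show τ (idx p) < 24 by have := hτlt _ hp; omega),
        hn _ hp, hn _ (hτlt _ hp)]
    · simp only [f, if_neg hp]
  have hlow : ∀ i < 8, (fun p => wordOf (2 ^ τ i) (π p)) = wordOf (2 ^ i) := fun i hi =>
    wordOf_two_pow_comp π (by omega) (by have := hτlt i hi; omega) (by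
      show f (pt i) = pt (τ i)
      simp only [f, CfsgLib.Golay.idx_pt (show i < 24 by omega), if_pos hi])
  have hDaff : ∀ a ∈ affMasks, wordOf a ∈ D := fun a ha => by
    have hz : ∀ a ∈ affMasks, ∀ m < 8, a.testBit m = false := by decide +kernel
    rw [mem_pullCode, hhigh a (hz a ha)]
    exact hσ a ha
  have hDglue : ∀ i < 8, wordOf (glue (τ i) ^^^ glue k) ∈ D := by
    intro i hi
    by_cases hi0 : 0 < i
    · rw [glue, glue, (xor_four _ _ _ _).2, Nat.xor_comm (2 ^ τ i), Nat.xor_comm (glueHigh (τ i)),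
        mem_pullCode]
      have e : (fun p => wordOf ((2 ^ k ^^^ 2 ^ τ i) ^^^ (glueHigh k ^^^ glueHigh (τ i))) (π p)) =
          wordOf ((2 ^ 0 ^^^ 2 ^ i) ^^^ (glueHigh k ^^^ glueHigh (τ i))) := by
        have e1 := hlow 0 (by norm_num)
        rw [hτ0] at e1
        have e3 := hhigh (glueHigh k) (fun m hm => glueHigh_low hk hm)
        have e4 := hhigh (glueHigh (τ i)) (fun m hm => glueHigh_low (hτlt i hi) hm)
        funext p
        simp only [CfsgLib.Golay.wordOf_xor, Pi.add_apply]
        exact congrArg₂ (· + ·) (congrArg₂ (· + ·) (congrFun e1 p) (congrFun (hlow i hi) p))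
          (congrArg₂ (· + ·) (congrFun e3 p) (congrFun e4 p))
      rw [e]
      exact hglue i hi0 hi
    · rw [show i = 0 by omega, hτ0, Nat.xor_self, CfsgLib.Golay.wordOf_zero]
      exact D.zero_mem
  have hsurj : ∀ a < 8, ∃ i < 8, τ i = a := by
    intro a ha
    let t : Fin 8 → Fin 8 := fun i => ⟨τ i, hτlt i i.2⟩
    have ht : Function.Injective t := fun i j e =>
      Fin.ext (hτinj i i.2 j j.2 (congrArg Fin.val e))
    obtain ⟨i, hi⟩ := (Finite.injective_iff_surjective.1 ht) ⟨a, ha⟩
    exact ⟨i, i.2, congrArg Fin.val hi⟩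
  have hgen : ∀ b ∈ canonGens, wordOf b ∈ D := by
    intro b hb
    rcases List.mem_append.1 hb with hb | hb
    · exact hDaff b hb
    · obtain ⟨j, hj, rfl⟩ := List.mem_map.1 hb
      have hj8 : j < 8 := by simp at hj; omega
      obtain ⟨i0, hi0, e0⟩ := hsurj 0 (by norm_num)
      obtain ⟨i1, hi1, e1⟩ := hsurj j hj8
      have h0 := hDglue i0 hi0
      have h1 := hDglue i1 hi1
      rw [e0] at h0
      rw [e1] at h1
      have := wordOf_xor_mem h0 h1
      rwa [Nat.xor_comm (glue 0), Nat.xor_comm (glue j), (xor_four _ _ _ 0).1] at this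
  have hspan : ∀ n ∈ spanMasks canonGens, wordOf n ∈ D := fun n hn =>
    CfsgLib.Golay.spanMasks_induction (P := (· ∈ D)) D.zero_mem (fun _ _ => D.add_mem) hgen hn
  refine ⟨σ.trans π |>.trans 1, fun w => ?_⟩
  have hlt : ∀ n ∈ spanMasks canonGens, n < 2 ^ 24 := by
    suffices ∀ bs : List ℕ, (∀ b ∈ bs, b < 2 ^ 24) → ∀ n ∈ spanMasks bs, n < 2 ^ 24 from
      this _ fun b hb => by simpa using List.all_eq_true.1 high_check.2.2.1 b hb
    intro bs
    induction bs with
    | nil => intro _ n hn; rw [List.mem_singleton.1 hn]; norm_num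
    | cons b bs ih =>
      intro hb n hn
      rcases List.mem_append.1 hn with hn | hn
      · exact ih (fun c hc => hb c (List.mem_cons_of_mem _ hc)) n hn
      · obtain ⟨m, hm, rfl⟩ := List.mem_map.1 hn
        exact Nat.xor_lt_two_pow (hb b (List.mem_cons_self ..))
          (ih (fun c hc => hb c (List.mem_cons_of_mem _ hc)) m hm)
  let M : Finset (GolayPt → ZMod 2) := (spanMasks canonGens).toFinset.image wordOf
  have hM : M.card = 4096 := by
    rw [Finset.card_image_of_injOn, List.toFinset_card_of_nodup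
      (CfsgLib.Golay.spanMasks_nodup high_check.2.2.2.1), CfsgLib.Golay.spanMasks_length]
    · rfl
    · intro a ha b hb e
      simp only [List.coe_toFinset, Set.mem_ofPred_eq] at ha hb
      exact CfsgLib.Golay.unmask_injOn (hlt a ha) (hlt b hb)
        (by rw [← CfsgLib.Golay.support₂_wordOf, e, CfsgLib.Golay.support₂_wordOf])
  have hMD : M = vanish D ∅ := Finset.eq_of_subset_of_card_le (fun v hv => by
    simp only [M, Finset.mem_image, List.mem_toFinset] at hv
    obtain ⟨n, hn, rfl⟩ := hv
    exact mem_vanish.2 ⟨hspan n hn, fun i hi => absurd hi (Finset.notMem_empty i)⟩)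
    (by rw [hM, hDC.card_vanish_empty])
  have e := Finset.ext_iff.1 hMD w
  simp only [M, Finset.mem_image, List.mem_toFinset, mem_vanish, Finset.notMem_empty,
    IsEmpty.forall_iff, implies_true, and_true] at e
  rw [e]
  rfl

/-- Uniqueness: the code is the standard one up to a permutation. -/
theorem IsCodeLike.exists_equiv (h : IsCodeLike C) :
    ∃ σ : Equiv.Perm GolayPt, ∀ w, w ∈ golayCode ↔ (fun i => w (σ i)) ∈ C := by
  have hG : IsCodeLike golayCode :=
    { card_eq := CfsgLib.Golay.natCard_golayCode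
      four_dvd := fun c hc => by
        rcases CfsgLib.Golay.card_mem_weights ⟨c, hc, rfl⟩ with e | e | e | e | e <;> rw [e] <;> norm_num
      eight_le := fun c hc h0 => by
        by_contra hlt
        apply h0
        apply support₂_injective
        rw [CfsgLib.Golay.min_weight ⟨c, hc, rfl⟩ (by omega)]
        ext i; simp [support₂] }
  obtain ⟨σ, hσ⟩ := h.exists_canonical
  obtain ⟨ρ, hρ⟩ := hG.exists_canonical
  refine ⟨σ.trans ρ.symm, fun w => ?_⟩
  have h1 := (hρ (fun i => w (ρ.symm i))).trans (hσ (fun i => w (ρ.symm i))).symm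
  simp only [mem_pullCode, Equiv.symm_apply_apply] at h1
  exact h1

end CfsgLib.Leech.CodeUnique
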