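import Cfsg.Agent.Lib.Leech.Layers
import Cfsg.Agent.Lib.Leech.Monomial

/-!
A subgroup of `ℤ^24` containing the standard frame, even without roots and with 196560 minimal
vectors is the standard construction on some Golay-like code, up to sign changes.
-/

set_option autoImplicit false

namespace CfsgLib.Leech

open Cfsg Finset
open scoped Classical

/-- The properties of a subgroup of `ℤ^24` in frame coordinates. -/
structure IsFrameLattice (N : AddSubgroup (GolayPt → ℤ)) : Prop where
  even_norm : ∀ x ∈ N, (16 : ℤ) ∣ sqNorm x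
  min_norm : ∀ x ∈ N, x ≠ 0 → 32 ≤ sqNorm x
  eight_mem : ∀ i, Pi.single i (8 : ℤ) ∈ N
  four_mem : ∀ i j, i ≠ j → Pi.single i (4 : ℤ) + Pi.single j (4 : ℤ) ∈ N
  count : {x | x ∈ N ∧ sqNorm x = 32}.ncard = 196560

/-- The standard construction on a binary code. -/
def InStd (D : Submodule (ZMod 2) (GolayPt → ZMod 2)) (x : GolayPt → ℤ) : Prop :=
  ∃ m : ℤ, (m = 0 ∨ m = 1) ∧ ∃ c ∈ D, HasResidues m c x ∧ ∑ i, x i ≡ 4 * m [ZMOD 8]

theorem dotInt_comm {α : Type*} [Fintype α] (x y : α → ℤ) : dotInt x y = dotInt y x :=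
  Finset.sum_congr rfl fun i _ => mul_comm _ _

theorem sqNorm_single (i : GolayPt) (a : ℤ) : sqNorm (Pi.single i a) = a ^ 2 := by
  simp only [sqNorm]
  rw [Finset.sum_eq_single i (fun j _ hj => by rw [Pi.single_eq_of_ne hj]; ring)
    (fun h => absurd (Finset.mem_univ i) h), Pi.single_eq_same]

theorem sum_single (i : GolayPt) (a : ℤ) :
    ∑ j, (Pi.single i a : GolayPt → ℤ) j = a := Finset.sum_pi_single' i a _ |>.trans (by simp)

/-- The code of a subgroup in frame coordinates. -/
def frameCode (N : AddSubgroup (GolayPt → ℤ)) : Submodule (ZMod 2) (GolayPt → ZMod 2) where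
  carrier := {c | ∃ x ∈ N, HasResidues 0 c x}
  zero_mem' := ⟨0, N.zero_mem, fun i => by simp [bitVec]⟩
  add_mem' := by
    rintro c d ⟨x, hx, hx'⟩ ⟨y, hy, hy'⟩
    refine ⟨x + y, N.add_mem hx hy, fun i => ?_⟩
    have := bitVec_add c d i
    have := hx' i
    have := hy' i
    simp only [Pi.add_apply]
    omega
  smul_mem' := by
    rintro a c ⟨x, hx, hx'⟩
    rcases zmod2_cases a with rfl | rfl
    · exact ⟨0, N.zero_mem, fun i => by simp [bitVec]⟩
    · exact ⟨x, hx, by rwa [one_smul]⟩

theorem support₂_add (c d : GolayPt → ZMod 2) :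
    (support₂ (c + d)).card + 2 * (support₂ c ∩ support₂ d).card =
      (support₂ c).card + (support₂ d).card := by
  have h1 : ∀ i, (if (c + d) i = 0 then 0 else 1) + 2 * (if c i ≠ 0 ∧ d i ≠ 0 then 1 else 0) =
      (if c i = 0 then (0 : ℕ) else 1) + (if d i = 0 then 0 else 1) := fun i => by
    rcases zmod2_cases (c i) with h | h <;> rcases zmod2_cases (d i) with h' | h' <;>
      simp [h, h', show (1 : ZMod 2) + 1 = 0 by decide]
  have h2 : ∀ e : GolayPt → ZMod 2, (support₂ e).card = ∑ i, (if e i = 0 then 0 else 1) := fun e => by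
    rw [support₂, Finset.card_filter]; exact Finset.sum_congr rfl fun i _ => by simp
  have h3 : (support₂ c ∩ support₂ d).card = ∑ i, (if c i ≠ 0 ∧ d i ≠ 0 then 1 else 0) := by
    rw [support₂, support₂, ← Finset.filter_and, Finset.card_filter]
  rw [h2, h2, h2, h3, Finset.mul_sum, ← Finset.sum_add_distrib, ← Finset.sum_add_distrib]
  exact Finset.sum_congr rfl fun i _ => h1 i

theorem zmod2_sub_eq_add (c d : GolayPt → ZMod 2) : c - d = c + d := ZModModule.sub_eq_add c d

/-- A binary code of length 24 and minimum weight 8 has at most 759 words of weight 8. -/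
theorem card_weight_eight_le (D : Submodule (ZMod 2) (GolayPt → ZMod 2))
    (hmin : ∀ c ∈ D, c ≠ 0 → 8 ≤ (support₂ c).card) :
    (Finset.univ.filter fun c : D => (support₂ (c : GolayPt → ZMod 2)).card = 8).card ≤ 759 := by
  set F := Finset.univ.filter fun c : D => (support₂ (c : GolayPt → ZMod 2)).card = 8
  have hd : (F : Set D).PairwiseDisjoint fun c =>
      (support₂ (c : GolayPt → ZMod 2)).powersetCard 5 := by
    intro a ha b hb hab
    rw [Function.onFun, Finset.disjoint_left]
    intro s hs hs'
    simp only [Finset.mem_powersetCard] at hs hs'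
    have h5 : 5 ≤ (support₂ (a : GolayPt → ZMod 2) ∩ support₂ (b : GolayPt → ZMod 2)).card :=
      hs.2 ▸ Finset.card_le_card (Finset.subset_inter hs.1 hs'.1)
    have hne : (a : GolayPt → ZMod 2) + b ≠ 0 := fun h => hab (Subtype.ext (by
      rw [← sub_eq_zero, zmod2_sub_eq_add]; exact h))
    have h8 := hmin _ (D.add_mem a.2 b.2) hne
    have := support₂_add (a : GolayPt → ZMod 2) b
    simp only [F, Finset.coe_filter, Finset.mem_univ, true_and, Set.mem_ofPred_eq] at ha hb
    omega
  have h1 : (F.biUnion fun c => (support₂ (c : GolayPt → ZMod 2)).powersetCard 5).card ≤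
      ((Finset.univ : Finset GolayPt).powersetCard 5).card :=
    Finset.card_le_card fun s hs => by
      simp only [Finset.mem_biUnion, Finset.mem_powersetCard] at hs ⊢
      obtain ⟨c, -, -, h⟩ := hs
      exact ⟨Finset.subset_univ s, h⟩
  rw [Finset.card_biUnion hd, Finset.card_powersetCard] at h1
  have h2 : ∀ c ∈ F, ((support₂ (c : GolayPt → ZMod 2)).powersetCard 5).card = 56 := fun c hc => by
    rw [Finset.card_powersetCard, (Finset.mem_filter.1 hc).2]; decide
  rw [Finset.sum_congr rfl h2, Finset.sum_const, smul_eq_mul] at h1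
  have h3 : Nat.choose (Finset.univ : Finset GolayPt).card 5 = 42504 := by
    simp only [Finset.card_univ, GolayPt, Fintype.card_option, ZMod.card]
    decide +kernel
  rw [h3] at h1
  omega

/-- A binary code of length 24 and minimum weight 8 has at most 4096 words. -/
theorem card_le_4096 (D : Submodule (ZMod 2) (GolayPt → ZMod 2))
    (hmin : ∀ c ∈ D, c ≠ 0 → 8 ≤ (support₂ c).card) : Fintype.card D ≤ 4096 := by
  let R : Finset (Finset GolayPt) :=
    (Finset.range 4).biUnion fun k => (Finset.univ.erase none).powersetCard k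
  let R' : Finset (Finset GolayPt) := R ∪ R.image (insert none)
  have hRmem : ∀ x ∈ R, x.card ≤ 3 ∧ none ∉ x := fun x hx => by
    simp only [R, Finset.mem_biUnion, Finset.mem_range, Finset.mem_powersetCard,
      Finset.subset_erase] at hx
    obtain ⟨k, hk, ⟨-, hi⟩, rfl⟩ := hx
    exact ⟨by omega, hi⟩
  have hRcard : R.card = 2048 := by
    rw [Finset.card_biUnion]
    · simp only [Finset.card_powersetCard, Finset.card_erase_of_mem (Finset.mem_univ _),
        Finset.card_univ, GolayPt, Fintype.card_option, ZMod.card]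
      decide +kernel
    · intro a _ b _ hab
      rw [Function.onFun, Finset.disjoint_left]
      intro x hx hy
      rw [Finset.mem_powersetCard] at hx hy
      exact hab (hx.2.symm.trans hy.2)
  have hR' : R'.card = 4096 := by
    rw [Finset.card_union_of_disjoint, Finset.card_image_of_injOn, hRcard]
    · intro a ha b hb hab
      have := congrArg (fun x => x.erase none) hab
      simpa [Finset.erase_insert (hRmem a ha).2, Finset.erase_insert (hRmem b hb).2] using this
    · rw [Finset.disjoint_left]
      intro x hx hy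
      obtain ⟨y, -, rfl⟩ := Finset.mem_image.1 hy
      exact (hRmem _ hx).2 (Finset.mem_insert_self _ y)
  have hR'mem : ∀ x ∈ R', x.card ≤ 3 ∨ (x.card ≤ 4 ∧ none ∈ x) := fun x hx => by
    rcases Finset.mem_union.1 hx with hx | hx
    · exact Or.inl (hRmem x hx).1
    · obtain ⟨y, hy, rfl⟩ := Finset.mem_image.1 hx
      exact Or.inr ⟨(Finset.card_insert_le _ _).trans (by have := (hRmem y hy).1; omega),
        Finset.mem_insert_self _ _⟩
  let ind : Finset GolayPt → (GolayPt → ZMod 2) := fun s i => if i ∈ s then 1 else 0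
  have hind : ∀ s, support₂ (ind s) = s := fun s => by
    ext i; by_cases h : i ∈ s <;> simp [support₂, ind, h]
  have hinj : Function.Injective fun p : D × R' => (p.1 : GolayPt → ZMod 2) + ind p.2.1 := by
    rintro ⟨c, s, hs⟩ ⟨d, t, ht⟩ h
    simp only at h
    have hst : ind s + ind t = (c : GolayPt → ZMod 2) + d := by
      rw [← zmod2_sub_eq_add (c : GolayPt → ZMod 2), ← zmod2_sub_eq_add (ind s), sub_eq_sub_iff_add_eq_add,
        add_comm (ind s), add_comm (c : GolayPt → ZMod 2)]
      rw [← sub_eq_zero] at h ⊢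
      rw [zmod2_sub_eq_add] at h ⊢
      rw [← h]
      abel
    have hcd : (c : GolayPt → ZMod 2) + d = 0 := by
      by_contra hne
      have h8 := hmin _ (D.add_mem c.2 d.2) hne
      rw [← hst] at h8
      have := support₂_add (ind s) (ind t)
      rw [hind, hind] at this
      rcases hR'mem s hs with a | ⟨a, a'⟩ <;> rcases hR'mem t ht with b | ⟨b, b'⟩
      all_goals first
        | omega
        | (have : 1 ≤ (s ∩ t).card := Finset.card_pos.2 ⟨none, Finset.mem_inter.2 ⟨a', b'⟩⟩
           omega)
    rw [← zmod2_sub_eq_add, sub_eq_zero] at hcd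
    have hcd' : c = d := Subtype.ext hcd
    subst hcd'
    have : s = t := by rw [← hind s, add_left_cancel h, hind]
    subst this; rfl
  have := Nat.card_le_card_of_injective _ hinj
  rw [Nat.card_prod, Nat.card_fun,
    Nat.card_eq_fintype_card (α := R'), Fintype.card_coe, hR'] at this
  rw [show Nat.card GolayPt = 24 by simp [GolayPt], Nat.card_zmod] at this
  norm_num at this
  rw [← Nat.card_eq_fintype_card] at this ⊢
  omega

theorem dp_any_values : ∀ w < 25,
    (dp (List.replicate w (3 : ℤ) ++ List.replicate (24 - w) 1)).getD 32 0 = 24 ∧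
      (8 < w → (dp (List.replicate w (2 : ℤ) ++ List.replicate (24 - w) 0)).getD 32 0 = 0) ∧
      (w = 8 → (dp (List.replicate w (2 : ℤ) ++ List.replicate (24 - w) 0)).getD 32 0 = 256) ∧
      (w = 0 → (dp (List.replicate w (2 : ℤ) ++ List.replicate (24 - w) 0)).getD 32 0 = 1104) := by
  decide +kernel

namespace IsFrameLattice

variable {N : AddSubgroup (GolayPt → ℤ)} (h : IsFrameLattice N)
include h

theorem eight_dvd_dot {x y : GolayPt → ℤ} (hx : x ∈ N) (hy : y ∈ N) : (8 : ℤ) ∣ dotInt x y := by
  have h0 := h.even_norm _ (N.add_mem hx hy)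
  have h1 := h.even_norm _ hx
  have h2 := h.even_norm _ hy
  rw [sqNorm_add] at h0
  omega

theorem four_smul_mem (z : GolayPt → ℤ) (hz : (2 : ℤ) ∣ ∑ i, z i) : (fun i => 4 * z i) ∈ N := by
  obtain ⟨t, ht⟩ := hz
  have e : (fun i => 4 * z i) = ∑ i ∈ Finset.univ.erase (none : GolayPt),
      z i • (Pi.single i (4 : ℤ) + Pi.single none (4 : ℤ)) + (z none - t) • Pi.single none (8 : ℤ) := by
    funext j
    simp only [Pi.add_apply, Finset.sum_apply, Pi.smul_apply, smul_eq_mul]
    by_cases hj : j = none
    · subst hj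
      rw [Finset.sum_congr rfl (g := fun i => 4 * z i) (fun i hi => by
        rw [Pi.single_eq_same, Pi.single_eq_of_ne (Finset.ne_of_mem_erase hi).symm]; ring),
        ← Finset.mul_sum, Pi.single_eq_same]
      have := Finset.add_sum_erase Finset.univ z (Finset.mem_univ none)
      linarith
    · simp only [Pi.single_eq_of_ne hj, mul_zero, add_zero]
      rw [Finset.sum_eq_single j]
      · rw [Pi.single_eq_same]; ring
      · intro i _ hi; rw [Pi.single_eq_of_ne hi.symm]; ring
      · intro hn; exact absurd (Finset.mem_erase.2 ⟨hj, Finset.mem_univ j⟩) hn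
  rw [e]
  exact N.add_mem (N.sum_mem fun i hi => N.zsmul_mem (h.four_mem i none (Finset.ne_of_mem_erase hi)) _)
    (N.zsmul_mem (h.eight_mem none) _)

theorem not_four_single_mem (i : GolayPt) : Pi.single i (4 : ℤ) ∉ N := fun hi => by
  have h1 := h.min_norm _ hi (fun e => by
    have := congrFun e i
    rw [Pi.single_eq_same, Pi.zero_apply] at this
    omega)
  rw [sqNorm_single] at h1
  norm_num at h1

/-- Every residue pattern of an even member has a representative with small entries. -/
theorem exists_small {c : GolayPt → ZMod 2} (hc : c ∈ frameCode N) (j : GolayPt) :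
    ∃ t : ℤ, (t = 0 ∨ t = -1) ∧ mkVec 0 c (Pi.single j t) ∈ N := by
  obtain ⟨x, hx, hr⟩ := hc
  set z : GolayPt → ℤ := fun i => (x i - 0 - 2 * bitVec c i) / 4
  have he : x = mkVec 0 c z := hr.eq_mkVec
  refine ⟨-((∑ i, z i) % 2), by omega, ?_⟩
  have hd : (2 : ℤ) ∣ ∑ i, ((Pi.single j (-((∑ i, z i) % 2)) : GolayPt → ℤ) i - z i) := by
    rw [Finset.sum_sub_distrib, sum_single]; omega
  have hadd := N.add_mem hx (h.four_smul_mem _ hd)
  convert hadd using 1
  funext i
  rw [he]
  simp only [Pi.add_apply, mkVec]
  ring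

theorem four_dvd_weight {c : GolayPt → ZMod 2} (hc : c ∈ frameCode N) :
    4 ∣ (support₂ c).card := by
  obtain ⟨t, -, hm⟩ := h.exists_small hc none
  have := h.even_norm _ hm
  rw [sqNorm_mkVec] at this
  omega

theorem eight_le_weight {c : GolayPt → ZMod 2} (hc : c ∈ frameCode N) (hc0 : c ≠ 0) :
    8 ≤ (support₂ c).card := by
  obtain ⟨j, hj⟩ : ∃ j, c j ≠ 0 := by
    by_contra h'; simp only [not_exists, not_not] at h'; exact hc0 (funext h')
  obtain ⟨t, ht, hm⟩ := h.exists_small hc j
  have hne : mkVec 0 c (Pi.single j t) ≠ 0 := fun e => by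
    have := congrFun e j
    simp only [mkVec, bitVec, hj, if_false, Pi.single_eq_same, Pi.zero_apply] at this
    omega
  have h32 := h.min_norm _ hm hne
  rw [sqNorm_mkVec] at h32
  have h0 : ∑ i, (bitVec c i * (Pi.single j t : GolayPt → ℤ) i
      + (Pi.single j t : GolayPt → ℤ) i ^ 2) = 0 := by
    refine Finset.sum_eq_zero fun i _ => ?_
    by_cases hi : i = j
    · subst hi
      rw [Pi.single_eq_same]
      simp only [bitVec, hj, if_false]
      rcases ht with rfl | rfl <;> norm_num
    · rw [Pi.single_eq_of_ne hi]; ring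
  rw [h0] at h32
  omega

theorem residues_cases {x : GolayPt → ℤ} (hx : x ∈ N) :
    (∃ c ∈ frameCode N, HasResidues 0 c x) ∨ ∃ c, HasResidues 1 c x := by
  have hpar : ∀ i, i ≠ none → x i % 2 = x none % 2 := fun i hi => by
    have := h.eight_dvd_dot hx (h.four_mem i none hi)
    have e : dotInt x (Pi.single i (4 : ℤ) + Pi.single none (4 : ℤ)) = 4 * x i + 4 * x none := by
      simp only [dotInt, Pi.add_apply, mul_add, Finset.sum_add_distrib]
      rw [Finset.sum_eq_single i (fun j _ hj => by rw [Pi.single_eq_of_ne hj]; ring)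
          (fun hh => absurd (Finset.mem_univ i) hh),
        Finset.sum_eq_single none (fun j _ hj => by rw [Pi.single_eq_of_ne hj]; ring)
          (fun hh => absurd (Finset.mem_univ none) hh)]
      simp only [Pi.single_eq_same]
      ring
    rw [e] at this
    omega
  have hp : ∀ i, x i % 2 = x none % 2 := fun i => by
    by_cases hi : i = none
    · rw [hi]
    · exact hpar i hi
  let c : GolayPt → ZMod 2 := fun i => if x i % 4 = x none % 2 then 0 else 1
  have hc : HasResidues (x none % 2) c x := fun i => by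
    have := hp i
    by_cases hi : x i % 4 = x none % 2 <;> simp only [bitVec, c, hi, if_true, if_false,
      one_ne_zero] <;> omega
  rcases Int.emod_two_eq (x none) with e | e <;> rw [e] at hc
  · exact Or.inl ⟨c, ⟨x, hx, hc⟩, hc⟩
  · exact Or.inr ⟨c, hc⟩

/-- The structure theorem: the code is large, and odd members exist. -/
theorem code_facts : Fintype.card (frameCode N) = 4096 ∧ ∃ x ∈ N, ∃ c, HasResidues 1 c x := by
  have hmin : ∀ c ∈ frameCode N, c ≠ 0 → 8 ≤ (support₂ c).card := fun c hc => h.eight_le_weight hc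
  set D := frameCode N with hD
  let O : Finset (GolayPt → ZMod 2) := Finset.univ.filter fun c => ∃ x ∈ N, HasResidues 1 c x
  let S : ℤ → (GolayPt → ZMod 2) → Set (GolayPt → ℤ) := fun m c =>
    {x | x ∈ N ∧ HasResidues m c x ∧ sqNorm x = 32}
  let E8 := Finset.univ.filter fun c : D => (support₂ (c : GolayPt → ZMod 2)).card = 8
  have hO : O.card ≤ Fintype.card D := by
    by_cases hne : O.Nonempty
    · obtain ⟨c0, hc0⟩ := hne
      obtain ⟨x0, hx0, hr0⟩ := (Finset.mem_filter.1 hc0).2
      have hmem : ∀ c ∈ O, c + c0 ∈ D := fun c hc => by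
        obtain ⟨x, hx, hr⟩ := (Finset.mem_filter.1 hc).2
        refine ⟨x - x0, N.sub_mem hx hx0, fun i => ?_⟩
        have a := hr i
        have b := hr0 i
        simp only [bitVec, Pi.add_apply, Pi.sub_apply] at a b ⊢
        rcases zmod2_cases (c i) with e | e <;> rcases zmod2_cases (c0 i) with e' | e' <;>
          simp only [e, e', add_zero, zero_add, show (1 : ZMod 2) + 1 = 0 by decide, one_ne_zero,
            if_true, if_false] at a b ⊢ <;> omega
      rw [← Fintype.card_coe]
      exact Fintype.card_le_of_injective (fun c : O => (⟨c.1 + c0, hmem c.1 c.2⟩ : D))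
        fun a b e => Subtype.ext (add_right_cancel (Subtype.ext_iff.1 e))
    · rw [Finset.not_nonempty_iff_eq_empty.1 hne]; simp
  have bound : ∀ (m : ℤ) (c : GolayPt → ZMod 2) (hm : m = 0 ∨ m = 1),
      ∃ F : Finset (GolayPt → ℤ), S m c ⊆ F ∧
        F.card = (dp (List.replicate (support₂ c).card (m + 2) ++
          List.replicate (24 - (support₂ c).card) m)).getD 32 0 ∧
        ∀ x, x ∈ F ↔ HasResidues m c x ∧ sqNorm x = 32 := by
    intro m c hm
    obtain ⟨F, hF, hcard⟩ := exists_residueFinset m hm c 32 (by norm_num)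
    exact ⟨F, fun x hx => (hF x).2 ⟨hx.2.1, hx.2.2⟩, hcard, hF⟩
  have hw : ∀ c : GolayPt → ZMod 2, (support₂ c).card < 25 := fun c => by
    have := Finset.card_le_univ (support₂ c)
    simp only [GolayPt, Fintype.card_option, ZMod.card] at this
    omega
  have b1 : ∀ c, (S 1 c).ncard ≤ 24 := fun c => by
    obtain ⟨F, hF, hcard, -⟩ := bound 1 c (Or.inr rfl)
    rw [show (1 : ℤ) + 2 = 3 by norm_num, (dp_any_values _ (hw c)).1] at hcard
    exact hcard ▸ (Set.ncard_le_ncard hF F.finite_toSet).trans (Set.ncard_coe_finset F).le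
  have b0 : ∀ c : D, (S 0 c).ncard ≤ (if (c : GolayPt → ZMod 2) = 0 then 1104 else 0) +
      if (support₂ (c : GolayPt → ZMod 2)).card = 8 then 128 else 0 := by
    rintro ⟨c, hc⟩
    obtain ⟨F, hF, hcard, hFiff⟩ := bound 0 c (Or.inl rfl)
    rw [zero_add] at hcard
    have hle : (S 0 c).ncard ≤ F.card :=
      (Set.ncard_le_ncard hF F.finite_toSet).trans (Set.ncard_coe_finset F).le
    by_cases hc0 : c = 0
    · have h0 : (support₂ c).card = 0 := by
        rw [hc0]; exact Finset.card_eq_zero.2 (Finset.filter_eq_empty_iff.2 fun i _ => by simp)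
      rw [(dp_any_values _ (hw c)).2.2.2 h0] at hcard
      simp only [hc0, if_true] at hle ⊢
      omega
    · have h8 := hmin c hc hc0
      simp only [hc0, if_false, zero_add]
      by_cases h8' : (support₂ c).card = 8
      · rw [if_pos h8']
        rw [(dp_any_values _ (hw c)).2.2.1 h8'] at hcard
        obtain ⟨j, hj⟩ : ∃ j, c j ≠ 0 := by
          by_contra hh; simp only [not_exists, not_not] at hh; exact hc0 (funext hh)
        let G := F.filter fun x => x ∈ N
        have hG : (S 0 c).ncard ≤ G.card := by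
          rw [← Set.ncard_coe_finset]
          refine Set.ncard_le_ncard (fun x hx => ?_) G.finite_toSet
          simp only [G, Finset.coe_filter, Set.mem_ofPred_eq]
          exact ⟨hF hx, hx.1⟩
        let flip : (GolayPt → ℤ) → (GolayPt → ℤ) := fun x => Function.update x j (-x j)
        have hflip : G.card ≤ (F.filter fun x => x ∉ N).card := by
          refine Finset.card_le_card_of_injOn flip ?_ ?_
          · intro x hx
            simp only [G, Finset.coe_filter, Set.mem_ofPred_eq] at hx ⊢
            obtain ⟨h1, h2⟩ := (hFiff x).1 hx.1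
            have hxj : x j % 4 = 2 := by
              have := h1 j; simp only [bitVec, hj, if_false] at this; omega
            refine ⟨(hFiff _).2 ⟨fun i => ?_, ?_⟩, fun hn => ?_⟩
            · by_cases hi : i = j
              · subst hi
                have h3 := h1 i
                simp only [flip, Function.update_self]; omega
              · simp only [flip, Function.update_of_ne hi]; exact h1 i
            · have := sqNorm_update x j (-x j)
              rw [neg_sq] at this
              simp only [flip]
              linarith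
            · have hd : x - flip x = Pi.single j (2 * x j) := by
                funext i
                by_cases hi : i = j
                · subst hi; simp only [flip, Pi.sub_apply, Function.update_self, Pi.single_eq_same]; ring
                · simp only [flip, Pi.sub_apply, Function.update_of_ne hi, Pi.single_eq_of_ne hi,
                    sub_self]
              have hmem : Pi.single j (2 * x j) ∈ N := hd ▸ N.sub_mem hx.2 hn
              apply h.not_four_single_mem j
              have e : (Pi.single j (4 : ℤ) : GolayPt → ℤ) = Pi.single j (2 * x j) +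
                  (-((x j - 2) / 4)) • (Pi.single j (8 : ℤ) : GolayPt → ℤ) := by
                rw [← Pi.single_smul, ← Pi.single_add, smul_eq_mul]
                congr 1
                omega
              rw [e]
              exact N.add_mem hmem (N.zsmul_mem (h.eight_mem j) _)
          · intro a _ b _ e
            have := congrArg flip e
            simpa [flip, Function.update_idem, Function.update_eq_self] using this
        have := Finset.card_filter_add_card_filter_not (s := F) (fun x => x ∈ N)
        change G.card + (F.filter fun x => x ∉ N).card = F.card at this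
        omega
      · rw [(dp_any_values _ (hw c)).2.1 (by omega)] at hcard
        omega
  have hcount := h.count
  have hsub : {x | x ∈ N ∧ sqNorm x = 32} ⊆
      (⋃ c : D, S 0 c) ∪ ⋃ c : O, S 1 c := by
    rintro x ⟨hx, hn⟩
    rcases h.residues_cases hx with ⟨c, hc, hr⟩ | ⟨c, hr⟩
    · exact Or.inl (Set.mem_iUnion.2 ⟨⟨c, hc⟩, hx, hr, hn⟩)
    · exact Or.inr (Set.mem_iUnion.2
        ⟨⟨c, Finset.mem_filter.2 ⟨Finset.mem_univ _, x, hx, hr⟩⟩, hx, hr, hn⟩)
  have hfin : ∀ (m : ℤ), (m = 0 ∨ m = 1) → ∀ c, (S m c).Finite := fun m hm c => by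
    obtain ⟨F, hF, -, -⟩ := bound m c hm
    exact F.finite_toSet.subset hF
  have hle : 196560 ≤ (∑ c : D, (S 0 c).ncard) + ∑ c : O, (S 1 c).ncard := by
    rw [← hcount]
    refine (Set.ncard_le_ncard hsub ((Set.finite_iUnion fun c => hfin 0 (Or.inl rfl) _).union
      (Set.finite_iUnion fun c => hfin 1 (Or.inr rfl) _))).trans ((Set.ncard_union_le _ _).trans ?_)
    exact Nat.add_le_add (Set.ncard_iUnion_le_of_fintype _) (Set.ncard_iUnion_le_of_fintype _)
  have hs1 : ∑ c : O, (S 1 c).ncard ≤ O.card * 24 := by
    refine (Finset.sum_le_sum fun c _ => b1 _).trans ?_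
    simp
  have hs0 : ∑ c : D, (S 0 c).ncard ≤ 1104 + E8.card * 128 := by
    refine (Finset.sum_le_sum fun c _ => b0 c).trans ?_
    rw [Finset.sum_add_distrib, ← Finset.sum_filter, ← Finset.sum_filter, Finset.sum_const,
      Finset.sum_const, smul_eq_mul, smul_eq_mul]
    refine Nat.add_le_add ?_ le_rfl
    have : (Finset.univ.filter fun c : D => (c : GolayPt → ZMod 2) = 0).card ≤ 1 :=
      Finset.card_le_one.2 fun a ha b hb => Subtype.ext
        ((Finset.mem_filter.1 ha).2.trans (Finset.mem_filter.1 hb).2.symm)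
    omega
  have h8 : E8.card ≤ 759 := card_weight_eight_le D hmin
  have h4096 := card_le_4096 D hmin
  have hO4096 : O.card = 4096 := by omega
  obtain ⟨c, hc⟩ := Finset.card_pos.1 (by omega : 0 < O.card)
  obtain ⟨x, hx, hr⟩ := (Finset.mem_filter.1 hc).2
  exact ⟨by omega, x, hx, c, hr⟩

end IsFrameLattice

/-- Sign changes as an additive equivalence of all integer vectors. -/
def flipEquiv (d : GolayPt → ZMod 2) : (GolayPt → ℤ) ≃+ (GolayPt → ℤ) where
  toFun := flipSigns d
  invFun := flipSigns d
  left_inv := flipSigns_flipSigns d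
  right_inv := flipSigns_flipSigns d
  map_add' x y := funext fun i => by simp only [flipSigns, Pi.add_apply]; split_ifs <;> ring

theorem mem_map_flip {N : AddSubgroup (GolayPt → ℤ)} {d : GolayPt → ZMod 2} {y : GolayPt → ℤ} :
    y ∈ N.map (flipEquiv d).toAddMonoidHom ↔ flipSigns d y ∈ N := by
  constructor
  · rintro ⟨x, hx, rfl⟩; rw [show (flipEquiv d).toAddMonoidHom x = flipSigns d x from rfl,
      flipSigns_flipSigns]; exact hx
  · intro hy; exact ⟨_, hy, flipSigns_flipSigns d y⟩

theorem IsFrameLattice.map_flip {N : AddSubgroup (GolayPt → ℤ)} (h : IsFrameLattice N)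
    (d : GolayPt → ZMod 2) : IsFrameLattice (N.map (flipEquiv d).toAddMonoidHom) where
  even_norm x hx := by rw [← sqNorm_flipSigns d x]; exact h.even_norm _ (mem_map_flip.1 hx)
  min_norm x hx h0 := by
    rw [← sqNorm_flipSigns d x]
    exact h.min_norm _ (mem_map_flip.1 hx) fun e => h0 (by
      rw [← flipSigns_flipSigns d x, e]; funext i; simp [flipSigns])
  eight_mem i := mem_map_flip.2 (by
    have : flipSigns d (Pi.single i (8 : ℤ)) = (if d i = 0 then (1 : ℤ) else -1) • Pi.single i (8 : ℤ) := by
      funext j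
      simp only [flipSigns, Pi.smul_apply, smul_eq_mul]
      by_cases hj : j = i
      · subst hj; rw [Pi.single_eq_same]; split_ifs <;> ring
      · rw [Pi.single_eq_of_ne hj]; split_ifs <;> ring
    rw [this]; exact N.zsmul_mem (h.eight_mem i) _)
  four_mem i j hij := mem_map_flip.2 (by
    have : flipSigns d (Pi.single i (4 : ℤ) + Pi.single j (4 : ℤ)) =
        fun k => 4 * ((Pi.single i (if d i = 0 then (1 : ℤ) else -1) : GolayPt → ℤ) k +
          (Pi.single j (if d j = 0 then (1 : ℤ) else -1) : GolayPt → ℤ) k) := by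
      funext k
      simp only [flipSigns, Pi.add_apply]
      by_cases hki : k = i
      · subst hki
        rw [Pi.single_eq_same, Pi.single_eq_same, Pi.single_eq_of_ne hij, Pi.single_eq_of_ne hij]
        split_ifs <;> ring
      · by_cases hkj : k = j
        · subst hkj
          rw [Pi.single_eq_same, Pi.single_eq_same, Pi.single_eq_of_ne hki, Pi.single_eq_of_ne hki]
          split_ifs <;> ring
        · simp [Pi.single_eq_of_ne hki, Pi.single_eq_of_ne hkj]
    rw [this]
    refine h.four_smul_mem _ ?_
    rw [Finset.sum_add_distrib, sum_single, sum_single]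
    split_ifs <;> norm_num)
  count := by
    rw [← h.count, ← Set.ncard_image_of_injective _ (flipEquiv d).injective]
    congr 1
    ext x
    simp only [Set.mem_image, Set.mem_ofPred_eq]
    constructor
    · rintro ⟨y, ⟨hy, hn⟩, rfl⟩
      exact ⟨mem_map_flip.1 hy, by rw [← hn]; exact sqNorm_flipSigns d y⟩
    · rintro ⟨hx, hn⟩
      exact ⟨flipSigns d x, ⟨mem_map_flip.2 (by rwa [flipSigns_flipSigns]),
        by rw [sqNorm_flipSigns, hn]⟩, flipSigns_flipSigns d x⟩

/-- Structure of a frame lattice. -/
theorem IsFrameLattice.exists_std {N : AddSubgroup (GolayPt → ℤ)} (h : IsFrameLattice N) :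
    ∃ (d : GolayPt → ZMod 2) (D : Submodule (ZMod 2) (GolayPt → ZMod 2)),
      Nat.card D = 4096 ∧ (∀ c ∈ D, 4 ∣ (support₂ c).card) ∧
      (∀ c ∈ D, c ≠ 0 → 8 ≤ (support₂ c).card) ∧ ∀ y, y ∈ N ↔ InStd D (flipSigns d y) := by
  obtain ⟨-, x1, hx1, c1, hr1⟩ := h.code_facts
  set N' := N.map (flipEquiv c1).toAddMonoidHom with hN'
  have h' : IsFrameLattice N' := h.map_flip c1
  obtain ⟨hcard, -⟩ := h'.code_facts
  refine ⟨c1, frameCode N', by rw [Nat.card_eq_fintype_card, hcard],
    fun c hc => h'.four_dvd_weight hc, fun c hc => h'.eight_le_weight hc, fun y => ?_⟩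
  suffices key : ∀ x, x ∈ N' ↔ InStd (frameCode N') x by
    rw [← key, mem_map_flip, flipSigns_flipSigns]
  set x0 := flipSigns c1 x1
  have hx0 : x0 ∈ N' := mem_map_flip.2 (by rwa [flipSigns_flipSigns])
  have hx0r : ∀ i, x0 i % 4 = 1 := fun i => by
    have := hr1 i
    simp only [bitVec] at this
    simp only [x0, flipSigns]
    rcases zmod2_cases (c1 i) with e | e <;>
      simp only [e, one_ne_zero, if_true, if_false] at this ⊢ <;> omega
  set u : GolayPt → ℤ := fun i => (x0 i - 1) / 4
  have hu : x0 = mkVec 1 0 u := by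
    funext i; have := hx0r i; simp only [mkVec, bitVec_zero, Pi.zero_apply, u]; omega
  have h0card : (support₂ (0 : GolayPt → ZMod 2)).card = 0 :=
    Finset.card_eq_zero.2 (Finset.filter_eq_empty_iff.2 fun i _ => by simp)
  have hsum0 : ∑ i, x0 i ≡ 4 [ZMOD 8] := by
    have := h'.even_norm _ hx0
    rw [hu, sqNorm_mkVec, h0card] at this
    rw [hu, mkVec_sum, h0card]
    show _ % 8 = _ % 8
    push_cast at this ⊢
    omega
  have heven : ∀ x ∈ N', ∀ c, HasResidues 0 c x → c ∈ frameCode N' ∧ ∑ i, x i ≡ 0 [ZMOD 8] := by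
    intro x hx c hr
    have hc : c ∈ frameCode N' := ⟨x, hx, hr⟩
    refine ⟨hc, ?_⟩
    obtain ⟨z, hz⟩ : ∃ z, x = mkVec 0 c z := ⟨_, hr.eq_mkVec⟩
    have hdot := h'.eight_dvd_dot hx hx0
    have e : ∀ i, x i * x0 i = x i + 8 * (u i * bitVec c i + 2 * (u i * z i)) := fun i => by
      rw [hu, hz]; simp only [mkVec, bitVec_zero, Pi.zero_apply]; ring
    rw [dotInt, Finset.sum_congr rfl (fun i _ => e i), Finset.sum_add_distrib, ← Finset.mul_sum] at hdot
    show _ % 8 = _ % 8
    omega
  intro x
  constructor
  · intro hx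
    rcases h'.residues_cases hx with ⟨c, hc, hr⟩ | ⟨c, hr⟩
    · exact ⟨0, Or.inl rfl, c, hc, hr, by simpa using (heven x hx c hr).2⟩
    · have hr' : HasResidues 0 c (x - x0) := fun i => by
        have a := hr i; have b := hx0r i
        simp only [Pi.sub_apply]; omega
      obtain ⟨hc, hs⟩ := heven _ (N'.sub_mem hx hx0) c hr'
      refine ⟨1, Or.inr rfl, c, hc, hr, ?_⟩
      simp only [Pi.sub_apply, Finset.sum_sub_distrib] at hs
      have := hs.eq; have := hsum0.eq
      show _ % 8 = _ % 8
      omega
  · rintro ⟨m, hm, c, hc, hr, hs⟩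
    obtain ⟨y', hy', hry⟩ := hc
    have hsy : ∑ i, y' i ≡ 0 [ZMOD 8] := (heven y' hy' c hry).2
    set z : GolayPt → ℤ := fun i => (x i - m * x0 i - y' i) / 4
    have he : x = m • x0 + y' + fun i => 4 * z i := by
      funext i
      have a := hr i; have b := hx0r i; have d := hry i
      simp only [Pi.add_apply, Pi.smul_apply, smul_eq_mul, z]
      rcases hm with rfl | rfl <;> omega
    have hz : (2 : ℤ) ∣ ∑ i, z i := by
      rw [he] at hs
      simp only [Pi.add_apply, Pi.smul_apply, smul_eq_mul, Finset.sum_add_distrib,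
        ← Finset.mul_sum] at hs
      have := hs.eq; have := hsum0.eq; have := hsy.eq
      rcases hm with rfl | rfl <;> omega
    rw [he]
    exact N'.add_mem (N'.add_mem (N'.zsmul_mem hx0 _) hy') (h'.four_smul_mem z hz)

end CfsgLib.Leech
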