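import Cfsg.Agent.Lib.Leech.Frame
import Cfsg.Agent.Lib.Leech.FrameLattice
import Cfsg.Agent.Lib.Leech.CodeUniqueness
import Cfsg.Agent.Lib.GolayStructure.MatrixLattice

/-!
An even lattice of rank 24 without roots and with the vector counts of the Leech lattice is isometric to it.
-/

set_option autoImplicit false

namespace CfsgLib.Leech

open Cfsg Finset Matrix

/-- A class of 48 congruent vectors of norm 8 holds a frame. -/
theorem exists_frame_of_class {M : Type*} [AddCommGroup M] {b : M →ₗ[ℤ] M →ₗ[ℤ] ℤ}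
    (hsymm : ∀ x y, b x y = b y x) (hmin : ∀ x, x ≠ 0 → 4 ≤ b x x) {x : M}
    (hcard : {y | b y y = 8 ∧ ∃ z, x - y = 2 • z}.ncard = 48) :
    ∃ X : GolayPt → M, (∀ i, b (X i) (X i) = 8) ∧ (∀ i j, i ≠ j → b (X i) (X j) = 0) ∧
      ∀ i j, ∃ z, X i - X j = 2 • z := by
  classical
  set S := {y | b y y = 8 ∧ ∃ z, x - y = 2 • z} with hS
  have hfin : S.Finite := Set.finite_of_ncard_ne_zero (by rw [hcard]; norm_num)
  have hcong : ∀ a ∈ S, ∀ c ∈ S, ∃ z, a - c = 2 • z := by
    rintro a ⟨-, z, hz⟩ c ⟨-, w, hw⟩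
    exact ⟨w - z, by rw [smul_sub, ← hz, ← hw]; abel⟩
  have horth : ∀ a ∈ S, ∀ c ∈ S, c ≠ a → c ≠ -a → b a c = 0 := by
    intro a ha c hc h1 h2
    obtain ⟨z, hz⟩ := hcong a ha c hc
    rcases GolayStructure.congr_two_cases hsymm hmin ha.1.le hc.1.le hz with h | h | h
    · exact absurd h h1
    · exact absurd h h2
    · exact h.2.2
  let g : M → Finset M := fun v => {v, -v}
  have h48 : hfin.toFinset.card = 48 := by rw [← Set.ncard_eq_toFinset_card _ hfin, hcard]
  have hle : hfin.toFinset.card ≤ 2 * (hfin.toFinset.image g).card := by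
    refine Finset.card_le_mul_card_image _ 2 fun p hp => ?_
    obtain ⟨a, -, rfl⟩ := Finset.mem_image.1 hp
    refine le_trans (Finset.card_le_card ?_) (Finset.card_le_two (a := a) (b := -a))
    intro y hy
    have : g y = g a := (Finset.mem_filter.1 hy).2
    show y ∈ g a
    rw [← this]; simp [g]
  have hsec : ∀ p ∈ hfin.toFinset.image g, ∃ v ∈ S, g v = p := by
    intro p hp
    obtain ⟨a, ha, rfl⟩ := Finset.mem_image.1 hp
    exact ⟨a, hfin.mem_toFinset.1 ha, rfl⟩
  choose f hfS hfg using hsec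
  obtain ⟨Y, hY, hYc⟩ := Finset.exists_subset_card_eq
    (show 24 ≤ (hfin.toFinset.image g).card by omega)
  have e : GolayPt ≃ Y := Fintype.equivOfCardEq (by rw [Fintype.card_coe, hYc]; simp [GolayPt])
  refine ⟨fun i => f (e i).1 (hY (e i).2), fun i => (hfS _ _).1, fun i j hij => ?_,
    fun i j => hcong _ (hfS _ _) _ (hfS _ _)⟩
  refine horth _ (hfS _ _) _ (hfS _ _) (fun h => hij ?_) (fun h => hij ?_)
  · have := congrArg g h
    rw [hfg, hfg] at this
    exact (e.injective (Subtype.ext this)).symm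
  · have := congrArg g h
    rw [hfg] at this
    have h2 : g (-(f (e i).1 (hY (e i).2))) = g (f (e i).1 (hY (e i).2)) := by
      simp [g, Finset.pair_comm]
    rw [h2, hfg] at this
    exact (e.injective (Subtype.ext this)).symm

/-- A rootless even lattice of rank 24 with the three vector counts is isometric to the Leech lattice. -/
theorem exists_isometry_leech (B : Matrix (Fin 24) (Fin 24) ℤ) (hsymm : B.IsSymm)
    (hpos : ∀ x : Fin 24 → ℤ, x ≠ 0 → 0 < x ⬝ᵥ (B *ᵥ x))
    (heven : ∀ x : Fin 24 → ℤ, (2 : ℤ) ∣ x ⬝ᵥ (B *ᵥ x))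
    (h2 : ∀ x : Fin 24 → ℤ, x ⬝ᵥ (B *ᵥ x) ≠ 2)
    (h4 : {x : Fin 24 → ℤ | x ⬝ᵥ (B *ᵥ x) = 4}.ncard = 196560)
    (h6 : {x : Fin 24 → ℤ | x ⬝ᵥ (B *ᵥ x) = 6}.ncard = 16773120)
    (h8 : {x : Fin 24 → ℤ | x ⬝ᵥ (B *ᵥ x) = 8}.ncard = 398034000) :
    ∃ f : (Fin 24 → ℤ) ≃+ leechLattice, ∀ x : Fin 24 → ℤ,
      sqNorm ((f x : leechLattice) : GolayPt → ℤ) = 8 * (x ⬝ᵥ (B *ᵥ x)) := by
  classical
  set b := GolayStructure.gramForm B
  have bsymm : ∀ x y, b x y = b y x := GolayStructure.gramForm_symm hsymm
  have bmin : ∀ x, x ≠ 0 → 4 ≤ b x x := GolayStructure.gramForm_min hpos heven h2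
  have borth := GolayStructure.gramForm_orth_card B
  obtain ⟨hclass, -⟩ := GolayStructure.frame_count bsymm bmin borth
    (fun x => fun i => (x i : ZMod 2)) GolayStructure.zmod_two_eq_iff
    (by simp [Fintype.card_fun]) h4 h6 h8
  obtain ⟨x8, hx8⟩ : {x : Fin 24 → ℤ | x ⬝ᵥ (B *ᵥ x) = 8}.Nonempty :=
    Set.nonempty_of_ncard_ne_zero (by rw [h8]; norm_num)
  obtain ⟨X, hX8, hX0, hXc⟩ := exists_frame_of_class bsymm bmin (hclass x8 hx8)
  have hXdot : ∀ i j, b (X i) (X j) = if i = j then 8 else 0 := fun i j => by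
    split_ifs with h
    · subst h; exact hX8 i
    · exact hX0 i j h
  let T : (Fin 24 → ℤ) →+ (GolayPt → ℤ) :=
    { toFun := fun v i => b v (X i)
      map_zero' := funext fun i => by simp
      map_add' := fun v w => funext fun i => by simp }
  have hT : ∀ v i, T v i = b v (X i) := fun _ _ => rfl
  have hpars : ∀ v, ∑ i, b v (X i) ^ 2 = 8 * b v v := by
    intro v
    set w := (8 : ℤ) • v - ∑ i, b v (X i) • X i with hw
    have hwj : ∀ j, b w (X j) = 0 := fun j => by
      rw [hw, map_sub, LinearMap.sub_apply, map_smul, LinearMap.smul_apply, map_sum,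
        LinearMap.sum_apply]
      simp only [map_smul, LinearMap.smul_apply, hXdot, smul_eq_mul, mul_ite, mul_zero,
        Finset.sum_ite_eq', Finset.mem_univ, if_true]
      ring
    have hw0 : w = 0 := by
      by_contra hne
      have hXinj : Function.Injective X := fun i j h => by
        by_contra hne'
        have h1 := hX0 i j hne'
        rw [← h, hX8] at h1
        norm_num at h1
      have hwX : ∀ i, w ≠ X i := fun i h => by
        have h1 := hwj i
        rw [h, hX8] at h1
        norm_num at h1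
      have hc := borth (insert w (Finset.univ.image X)) (fun y hy => by
          rcases Finset.mem_insert.1 hy with rfl | hy
          · exact lt_of_lt_of_le (by norm_num) (bmin _ hne)
          · obtain ⟨i, -, rfl⟩ := Finset.mem_image.1 hy
            rw [hX8]; norm_num)
        (fun y hy z hz hyz => by
          rcases Finset.mem_insert.1 hy with rfl | hy <;> rcases Finset.mem_insert.1 hz with rfl | hz
          · exact absurd rfl hyz
          · obtain ⟨i, -, rfl⟩ := Finset.mem_image.1 hz
            exact hwj i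
          · obtain ⟨i, -, rfl⟩ := Finset.mem_image.1 hy
            rw [bsymm]; exact hwj i
          · obtain ⟨i, -, rfl⟩ := Finset.mem_image.1 hy
            obtain ⟨j, -, rfl⟩ := Finset.mem_image.1 hz
            exact hX0 i j fun e => hyz (congrArg X e))
      rw [Finset.card_insert_of_notMem (by
        simp only [Finset.mem_image, Finset.mem_univ, true_and, not_exists]
        exact fun i h => hwX i h.symm), Finset.card_image_of_injective _ hXinj] at hc
      simp [GolayPt] at hc
    have h : b w v = 0 := by rw [hw0]; simp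
    rw [hw, map_sub, LinearMap.sub_apply, map_smul, LinearMap.smul_apply, map_sum,
      LinearMap.sum_apply] at h
    simp only [map_smul, LinearMap.smul_apply, smul_eq_mul, bsymm (X _) v] at h
    simp only [sq]
    linarith
  have hnorm : ∀ v, sqNorm (T v) = 8 * b v v := hpars
  have hTinj : Function.Injective T := fun v w h => by
    by_contra hne
    have h1 := bmin _ (sub_ne_zero.2 hne)
    have h3 := hnorm (v - w)
    rw [map_sub, h, sub_self] at h3
    have h0 : sqNorm (0 : GolayPt → ℤ) = 0 := sqNorm_eq_zero_iff.2 rfl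
    omega
  have hTX : ∀ i, T (X i) = Pi.single i 8 := fun i => funext fun j => by
    rw [hT, hXdot, Pi.single_apply]
    exact if_congr eq_comm rfl rfl
  have hN : IsFrameLattice T.range :=
    { even_norm := by
        rintro x ⟨v, rfl⟩
        obtain ⟨k, hk⟩ := heven v
        rw [hnorm, show b v v = v ⬝ᵥ (B *ᵥ v) from rfl, hk]
        exact ⟨k, by ring⟩
      min_norm := by
        rintro x ⟨v, rfl⟩ h0
        have := bmin v fun h => h0 (by rw [h, map_zero])
        rw [hnorm]; omega
      eight_mem := fun i => ⟨X i, hTX i⟩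
      four_mem := fun i j _ => by
        obtain ⟨z, hz⟩ := hXc i j
        refine ⟨z + X j, ?_⟩
        have h := congrArg T hz
        rw [map_sub, map_nsmul, hTX, hTX] at h
        funext k
        have hk := congrFun h k
        simp only [Pi.sub_apply, Pi.smul_apply, nsmul_eq_mul, Nat.cast_ofNat] at hk
        rw [map_add, hTX, Pi.add_apply, Pi.add_apply]
        simp only [Pi.single_apply] at hk ⊢
        split_ifs at hk ⊢ <;> omega
      count := by
        rw [← h4, ← Set.ncard_image_of_injective _ hTinj]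
        congr 1
        ext x
        simp only [Set.mem_image, Set.mem_ofPred_eq]
        constructor
        · rintro ⟨⟨v, rfl⟩, hn⟩
          rw [hnorm] at hn
          exact ⟨v, by rw [show v ⬝ᵥ (B *ᵥ v) = b v v from rfl]; omega, rfl⟩
        · rintro ⟨v, hv, rfl⟩
          exact ⟨⟨v, rfl⟩, by rw [hnorm, show b v v = v ⬝ᵥ (B *ᵥ v) from rfl, hv]; norm_num⟩ }
  obtain ⟨d, D, hD, hD4, hD8, hstd⟩ := hN.exists_std
  obtain ⟨σ, hσ⟩ := CodeUnique.IsCodeLike.exists_equiv (C := D) ⟨hD, hD4, hD8⟩
  let F : (Fin 24 → ℤ) →+ (GolayPt → ℤ) :=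
    { toFun := fun v i => flipSigns d (T v) (σ.symm i)
      map_zero' := funext fun i => by simp [flipSigns]
      map_add' := fun v w => funext fun i => by
        simp only [map_add, flipSigns, Pi.add_apply]
        split_ifs <;> ring }
  have hFmem : ∀ v, F v ∈ leechLattice := fun v => by
    obtain ⟨m, hm, c, hc, hr, hs⟩ := (hstd (T v)).1 ⟨v, rfl⟩
    refine mem_leechLattice_iff_residues.2 ⟨m, hm, fun i => c (σ.symm i), (hσ _).2 ?_,
      fun i => ?_, ?_⟩
    · simpa using hc
    · exact hr (σ.symm i)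
    · show ∑ i, flipSigns d (T v) (σ.symm i) ≡ _ [ZMOD 8]
      rwa [Equiv.sum_comp σ.symm (flipSigns d (T v))]
  let F' : (Fin 24 → ℤ) →+ leechLattice := F.codRestrict leechLattice hFmem
  have hbij : Function.Bijective F' := by
    constructor
    · intro v w h
      apply hTinj
      funext p
      have h' : F v (σ p) = F w (σ p) := congrFun (congrArg Subtype.val h) (σ p)
      simp only [F, AddMonoidHom.coe_mk, ZeroHom.coe_mk, Equiv.symm_apply_apply, flipSigns] at h'
      split_ifs at h' <;> omega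
    · intro x
      obtain ⟨m, hm, c, hc, hr, hs⟩ := mem_leechLattice_iff_residues.1 x.2
      obtain ⟨v, hv⟩ := (hstd (flipSigns d fun i => (x : GolayPt → ℤ) (σ i))).2 (by
        rw [flipSigns_flipSigns]
        refine ⟨m, hm, fun i => c (σ i), (hσ c).1 hc, fun i => hr (σ i), ?_⟩
        rwa [Equiv.sum_comp σ (x : GolayPt → ℤ)])
      refine ⟨v, Subtype.ext (funext fun i => ?_)⟩
      show flipSigns d (T v) (σ.symm i) = _
      rw [hv, flipSigns_flipSigns, Equiv.apply_symm_apply]
  refine ⟨AddEquiv.ofBijective F' hbij, fun v => ?_⟩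
  show sqNorm (fun i => flipSigns d (T v) (σ.symm i)) = _
  rw [sqNorm_perm σ.symm (flipSigns d (T v)), sqNorm_flipSigns, hnorm]
  rfl

end CfsgLib.Leech
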