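import Cfsg.Agent.Lib.Leech.Cert.UnitarySix
import Cfsg.Agent.Lib.Leech.StabOrders

/-!
# The joint stabiliser of two minimal vectors with inner product `-16` is `PSU_6(2)`
-/

set_option autoImplicit false

namespace CfsgLib.Leech

open Cfsg CfsgLib.Fischer2 CfsgLib.ClassicalForms
open scoped Pointwise

/-- The first base vector. -/
def baseSixV : leechLattice := ofList Cert.UnitarySix.listV Cert.UnitarySix.listV_mem

/-- The second base vector. -/
def baseSixW : leechLattice := ofList Cert.UnitarySix.listW Cert.UnitarySix.listW_mem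

theorem baseSix_spec : sqNorm (coordVec baseSixV) = 32 ∧ sqNorm (coordVec baseSixW) = 32 ∧
    dotInt (coordVec baseSixV) (coordVec baseSixW) = -16 := by
  simp only [baseSixV, baseSixW, coordVec_ofList]
  decide +kernel

theorem natCard_psu_six {F : Type*} [Field F] [Fintype F] (hF : Fintype.card F = 4) :
    Nat.card (Cfsg.PSU 6 F 2) = 9196830720 := by
  have hFn : Nat.card F = 2 ^ 2 := by rw [Nat.card_eq_fintype_card, hF]; norm_num
  have h := card_psu_mul hFn (n := 6) (by norm_num)
  rw [card_gu hFn] at h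
  simp [Finset.prod_range_succ, Nat.even_iff, -Nat.card_eq_fintype_card] at h
  omega

theorem fix_six {M : List (List ℤ)} (h : matOk M = true)
    (hv : fixOk M Cert.UnitarySix.listV = true) (hw : fixOk M Cert.UnitarySix.listW = true) :
    matAut M h ∈ fixGroup [baseSixW, baseSixV] :=
  fix_two h hw rfl hv rfl

theorem nonempty_fix_six {F : Type*} [Field F] [Fintype F] (hF : Fintype.card F = 4) :
    Nonempty (fixGroup [baseSixW, baseSixV] ≃* Cfsg.PSU 6 F 2) := by
  classical
  obtain ⟨C⟩ := exists_coded4 hF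
  have hF2 : Fintype.card F = 2 ^ 2 := by rw [hF]; norm_num
  have hc : (1 : ℕ) < ops4.K := by decide
  have htv : ∀ i, ∃ t : Cfsg.SU 6 F 2, i < 6 → ∀ x, suAct t x = x +
      (C.val 1 * Cfsg.hermForm 6 F 2 x (C.vec 6 (Cert.UnitarySix.pt i))) •
        C.vec 6 (Cert.UnitarySix.pt i) := by
    intro i
    by_cases hi : i < 6
    · have hp : ops4.herm 6 (Cert.UnitarySix.pt i) (Cert.UnitarySix.pt i) = 0 :=
        (show ∀ i < 6, ops4.herm 6 (Cert.UnitarySix.pt i) (Cert.UnitarySix.pt i) = 0 by
          decide +kernel) i hi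
      obtain ⟨t, ht⟩ := exists_tv C hF2 hc hp (by decide +kernel)
      exact ⟨t, fun _ => ht⟩
    · exact ⟨1, fun h => absurd h hi⟩
  choose t ht using htv
  open Cert.UnitarySix in
  let g : ℕ → Co0 := fun i => match i with
    | 0 => matAut mat0 ok0
    | 1 => matAut mat1 ok1
    | 2 => matAut mat2 ok2
    | 3 => matAut mat3 ok3
    | 4 => matAut mat4 ok4
    | _ => matAut mat5 ok5
  have hp0 : C.vec 6 (Cert.UnitarySix.pt 0) ≠ 0 := by
    intro h
    have e : ∃ j : Fin 6, Cert.UnitarySix.pt 0 / ops4.K ^ (j : ℕ) % ops4.K ≠ 0 := by decide +kernel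
    obtain ⟨j, hj⟩ := e
    exact hj (C.inj _ (C.mod_lt _) _ C.pos (by rw [C.val_zero]; exact congrFun h j))
  open Cert.UnitarySix in
  have hcomp : ∀ i < 6, Compatible C 891 bas K (t i) (g i) := by
    intro i hi
    interval_cases i
    · exact compatible_gen C hc ok0 dataOk0 perm0 (ht 0 hi)
    · exact compatible_gen C hc ok1 dataOk1 perm1 (ht 1 hi)
    · exact compatible_gen C hc ok2 dataOk2 perm2 (ht 2 hi)
    · exact compatible_gen C hc ok3 dataOk3 perm3 (ht 3 hi)
    · exact compatible_gen C hc ok4 dataOk4 perm4 (ht 4 hi)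
    · exact compatible_gen C hc ok5 dataOk5 perm5 (ht 5 hi)
  open Cert.UnitarySix in
  have hg : ∀ i < 6, g i ∈ fixGroup [baseSixW, baseSixV] := by
    intro i hi
    interval_cases i
    · exact fix_six ok0 fix0_listV fix0_listW
    · exact fix_six ok1 fix1_listV fix1_listW
    · exact fix_six ok2 fix2_listV fix2_listW
    · exact fix_six ok3 fix3_listV fix3_listW
    · exact fix_six ok4 fix4_listV fix4_listW
    · exact fix_six ok5 fix5_listV fix5_listW
  exact nonempty_equiv_psu C hF2 (by norm_num) t g (k := 6) (by norm_num) hc ht (by decide +kernel)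
    (by decide +kernel) hp0 Cert.UnitarySix.cover Cert.UnitarySix.tree (by decide +kernel)
    Cert.UnitarySix.keys hcomp hg (by norm_num) (by norm_num) Cert.UnitarySix.move
    (by rw [natCard_fix_pair baseSix_spec.1 baseSix_spec.2.1 baseSix_spec.2.2, natCard_psu_six hF])

theorem nonempty_stab_pair {F : Type*} [Field F] [Fintype F] (hF : Fintype.card F = 4)
    {v w : leechLattice} (hv : sqNorm (coordVec v) = 32) (hw : sqNorm (coordVec w) = 32)
    (hd : dotInt (coordVec v) (coordVec w) = -16) :
    Nonempty (↥(MulAction.stabilizer Co0 v ⊓ MulAction.stabilizer Co0 w) ≃* Cfsg.PSU 6 F 2) := by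
  obtain ⟨a, b, c⟩ := baseSix_spec
  obtain ⟨h, h1, h2⟩ := pair_transitive a b hv hw (Or.inr (Or.inr rfl)) c hd
  have e : MulAction.stabilizer Co0 v ⊓ MulAction.stabilizer Co0 w =
      fixGroup ([baseSixW, baseSixV].map (h • ·)) := by
    ext g
    simp [mem_fixGroup, h1, h2, MulAction.mem_stabilizer_iff, and_comm]
  obtain ⟨φ⟩ := nonempty_fix_six hF
  exact ⟨((MulEquiv.subgroupCongr e).trans (fixGroupEquiv h _).symm).trans φ⟩

end CfsgLib.Leech
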